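import Mathlib
import Cfsg.Prelude.Def_RootSubgroups

set_option autoImplicit false

namespace Cfsg.Agent.Helper26

open Cfsg

/-- enumeration of the possible cycle types of an even permutation of six points -/
theorem a6_multiset (m : Multiset ℕ) (h2 : ∀ n ∈ m, 2 ≤ n) (hs : m.sum ≤ 6)
    (he : Even (m.sum + Multiset.card m)) :
    m.lcm ≤ 5 ∧ (m.lcm = 2 → m = {2, 2}) := by
  have hc : Multiset.card m • 2 ≤ m.sum := Multiset.card_nsmul_le_sum h2
  rw [smul_eq_mul] at hc
  have he' : (m.sum + Multiset.card m) % 2 = 0 := Nat.even_iff.1 he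
  have hcases : Multiset.card m = 0 ∨ Multiset.card m = 1 ∨ Multiset.card m = 2 ∨
      Multiset.card m = 3 := by omega
  rcases hcases with h | h | h | h
  · rw [Multiset.card_eq_zero] at h
    subst h
    decide
  · obtain ⟨a, rfl⟩ := Multiset.card_eq_one.1 h
    have ha := h2 a (Multiset.mem_singleton_self a)
    rw [Multiset.sum_singleton] at hs he'
    rw [Multiset.card_singleton] at he'
    have hcs : a = 3 ∨ a = 5 := by omega
    rcases hcs with rfl | rfl
    · decide
    · decide
  · obtain ⟨a, b, rfl⟩ := Multiset.card_eq_two.1 h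
    have ha := h2 a (by simp)
    have hb := h2 b (by simp)
    have hsum : ({a, b} : Multiset ℕ).sum = a + b := by
      rw [Multiset.insert_eq_cons, Multiset.sum_cons, Multiset.sum_singleton]
    rw [hsum] at hs he'
    rw [h] at he'
    have hcs : (a = 2 ∧ b = 2) ∨ (a = 2 ∧ b = 4) ∨ (a = 4 ∧ b = 2) ∨ (a = 3 ∧ b = 3) := by
      omega
    rcases hcs with ⟨rfl, rfl⟩ | ⟨rfl, rfl⟩ | ⟨rfl, rfl⟩ | ⟨rfl, rfl⟩
    · decide
    · decide
    · decide
    · decide
  · exfalso
    obtain ⟨a, b, c, rfl⟩ := Multiset.card_eq_three.1 h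
    have ha := h2 a (by simp)
    have hb := h2 b (by simp)
    have hc' := h2 c (by simp)
    have hsum : ({a, b, c} : Multiset ℕ).sum = a + (b + c) := by
      rw [Multiset.insert_eq_cons, Multiset.sum_cons, Multiset.insert_eq_cons,
        Multiset.sum_cons, Multiset.sum_singleton]
    rw [hsum] at hs he'
    rw [h] at he'
    omega

theorem a6_perm (g : Equiv.Perm (Fin 6)) (hg : Equiv.Perm.sign g = 1) :
    orderOf g ≤ 5 ∧ (orderOf g = 2 → g.cycleType = {2, 2}) := by
  have hsum : g.cycleType.sum ≤ 6 := by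
    have h := g.sum_cycleType_le
    rwa [Fintype.card_fin] at h
  have heven : Even (g.cycleType.sum + Multiset.card g.cycleType) := by
    have e := g.sign_of_cycleType
    rw [hg] at e
    exact (neg_one_pow_eq_one_iff_even (by decide)).1 e.symm
  have h := a6_multiset g.cycleType (fun n hn => Equiv.Perm.two_le_of_mem_cycleType hn)
    hsum heven
  rw [Equiv.Perm.lcm_cycleType] at h
  exact h

theorem a6_inv_witness : ∃ g : ↥(alternatingGroup (Fin 6)), orderOf g = 2 := by
  have h01 : Equiv.Perm.sign (Equiv.swap (0 : Fin 6) 1) = -1 := Equiv.Perm.sign_swap (by decide)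
  have h23 : Equiv.Perm.sign (Equiv.swap (2 : Fin 6) 3) = -1 := Equiv.Perm.sign_swap (by decide)
  have hs : Equiv.Perm.sign (Equiv.swap (0 : Fin 6) 1 * Equiv.swap 2 3) = 1 := by
    calc Equiv.Perm.sign (Equiv.swap (0 : Fin 6) 1 * Equiv.swap 2 3) = (-1) * (-1) := by
          rw [map_mul, h01, h23]
      _ = 1 := by decide
  have hmem : Equiv.swap (0 : Fin 6) 1 * Equiv.swap 2 3 ∈ alternatingGroup (Fin 6) :=
    Equiv.Perm.mem_alternatingGroup.2 hs
  refine ⟨⟨Equiv.swap (0 : Fin 6) 1 * Equiv.swap 2 3, hmem⟩, ?_⟩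
  have e : orderOf (⟨Equiv.swap (0 : Fin 6) 1 * Equiv.swap 2 3, hmem⟩ :
      ↥(alternatingGroup (Fin 6))) = orderOf (Equiv.swap (0 : Fin 6) 1 * Equiv.swap 2 3) :=
    Subgroup.orderOf_mk _ hmem
  rw [e]
  exact orderOf_eq_prime (by decide) (by decide)

theorem a6_closure_normal {G : Type*} [Group G] (D : Set G)
    (h : ∀ d ∈ D, ∀ g : G, g * d * g⁻¹ ∈ D) : (Subgroup.closure D).Normal := by
  constructor
  intro n hn g
  have h1 : Subgroup.closure D ≤ (Subgroup.closure D).comap (MulAut.conj g).toMonoidHom := by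
    rw [Subgroup.closure_le]
    intro x hx
    exact Subgroup.subset_closure (h x hx g)
  exact h1 hn

theorem a6_root_class :
    IsRootInvolutionClass {g : ↥(alternatingGroup (Fin 6)) | orderOf g = 2} ∧
    ∀ d ∈ {g : ↥(alternatingGroup (Fin 6)) | orderOf g = 2},
      ∀ e ∈ {g : ↥(alternatingGroup (Fin 6)) | orderOf g = 2}, orderOf (d * e) ≤ 5 := by
  have hle : ∀ x : ↥(alternatingGroup (Fin 6)), orderOf x ≤ 5 := fun x => by
    have e : orderOf (x : Equiv.Perm (Fin 6)) = orderOf x := Subgroup.orderOf_coe x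
    rw [← e]
    exact (a6_perm _ (Equiv.Perm.mem_alternatingGroup.1 x.2)).1
  have hct : ∀ x : ↥(alternatingGroup (Fin 6)), orderOf x = 2 →
      (x : Equiv.Perm (Fin 6)).cycleType = {2, 2} := fun x hx => by
    have e : orderOf (x : Equiv.Perm (Fin 6)) = orderOf x := Subgroup.orderOf_coe x
    rw [← e] at hx
    exact (a6_perm _ (Equiv.Perm.mem_alternatingGroup.1 x.2)).2 hx
  have hconj : ∀ d ∈ {g : ↥(alternatingGroup (Fin 6)) | orderOf g = 2},
      ∀ g : ↥(alternatingGroup (Fin 6)),
      g * d * g⁻¹ ∈ {g : ↥(alternatingGroup (Fin 6)) | orderOf g = 2} := by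
    intro d hd g
    show orderOf (g * d * g⁻¹) = 2
    have e : orderOf (g * d * g⁻¹) = orderOf d := (MulAut.conj g).orderOf_eq d
    rw [e]
    exact hd
  refine ⟨⟨⟨fun d hd => hd, ?_, hconj, ?_⟩, ?_, ?_⟩, fun d _ e _ => hle (d * e)⟩
  · -- generation
    have : IsSimpleGroup ↥(alternatingGroup (Fin 6)) :=
      alternatingGroup.isSimpleGroup (by
        rw [Nat.card_eq_fintype_card, Fintype.card_fin]
        norm_num)
    have hnormal := a6_closure_normal _ hconj
    rcases hnormal.eq_bot_or_eq_top with h | h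
    · exfalso
      obtain ⟨w, hw⟩ := a6_inv_witness
      have hw1 : w ∈ Subgroup.closure {g : ↥(alternatingGroup (Fin 6)) | orderOf g = 2} :=
        Subgroup.subset_closure hw
      rw [h, Subgroup.mem_bot] at hw1
      rw [hw1, orderOf_one] at hw
      exact absurd hw (by norm_num)
    · exact h
  · -- pairs
    intro a ha b hb
    have ha' : orderOf a = 2 := ha
    have hb' : orderOf b = 2 := hb
    have ha2 : a * a = 1 := by
      have h := pow_orderOf_eq_one a
      rw [ha', pow_two] at h
      exact h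
    have hb2 : b * b = 1 := by
      have h := pow_orderOf_eq_one b
      rw [hb', pow_two] at h
      exact h
    have hpos : 0 < orderOf (a * b) := orderOf_pos (a * b)
    have h5 := hle (a * b)
    have hcases : orderOf (a * b) = 1 ∨ orderOf (a * b) = 2 ∨ orderOf (a * b) = 3 ∨
        orderOf (a * b) = 4 ∨ orderOf (a * b) = 5 := by omega
    have hcomm : (a * b) * (a * b) = 1 → a * b = b * a := fun h => by
      have h1 : a * b = (a * b)⁻¹ := eq_inv_of_mul_eq_one_left h
      rw [mul_inv_rev, inv_eq_of_mul_eq_one_left ha2, inv_eq_of_mul_eq_one_left hb2] at h1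
      exact h1
    rcases hcases with h | h | h | h | h
    · left
      apply hcomm
      have h1 : a * b = 1 := orderOf_eq_one_iff.1 h
      rw [h1, one_mul]
    · left
      apply hcomm
      have h1 := pow_orderOf_eq_one (a * b)
      rw [h, pow_two] at h1
      exact h1
    · right; left
      rw [h]
      exact Nat.odd_iff.2 rfl
    · right; right
      refine ⟨h, ?_⟩
      show orderOf ((a * b) ^ 2) = 2
      have e : orderOf ((a * b) ^ 2) = orderOf (a * b) / Nat.gcd (orderOf (a * b)) 2 :=
        orderOf_pow' (a * b) (by norm_num)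
      rw [h] at e
      exact e.trans (by decide)
    · right; left
      rw [h]
      exact Nat.odd_iff.2 rfl
  · -- nonempty
    obtain ⟨w, hw⟩ := a6_inv_witness
    exact ⟨w, hw⟩
  · -- one class
    intro a ha b hb
    have hca := hct a ha
    have hcb := hct b hb
    have hc : IsConj (a : Equiv.Perm (Fin 6)) (b : Equiv.Perm (Fin 6)) :=
      Equiv.Perm.isConj_iff_cycleType_eq.2 (hca.trans hcb.symm)
    have hsupp : (a : Equiv.Perm (Fin 6)).support.card + 2 ≤ Fintype.card (Fin 6) := by
      rw [← Equiv.Perm.sum_cycleType, hca, Fintype.card_fin]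
      decide
    obtain ⟨c, hc'⟩ := isConj_iff.1 (alternatingGroup.isConj_of hc hsupp)
    exact ⟨c, hc'.symm⟩

end Cfsg.Agent.Helper26
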