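import Mathlib
import Cfsg.Agent.Helper26.SylowAux

set_option autoImplicit false

namespace Cfsg.Agent.Helper26

/-- In a `p`-subgroup of `Perm α` with `|α| < p²`, any two elements commute. -/
theorem perm_pgroup_comm_of_card_lt {α : Type*} [Fintype α] {p : ℕ} [Fact p.Prime]
    (P : Subgroup (Equiv.Perm α)) (hP : IsPGroup p ↥P) (hcard : Fintype.card α < p ^ 2)
    {a b : Equiv.Perm α} (ha : a ∈ P) (hb : b ∈ P) : a * b = b * a := by
  have hp := (Fact.out : p.Prime)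
  refine Equiv.ext fun x => ?_
  obtain ⟨H, hH⟩ : ∃ H : Subgroup ↥P, H = MulAction.stabilizer ↥P x := ⟨_, rfl⟩
  have hfix : ∀ g : ↥P, g ∈ H ↔ (g : Equiv.Perm α) x = x := by
    intro g
    rw [hH]
    exact MulAction.mem_stabilizer_iff
  obtain ⟨a', ha'⟩ : ∃ a' : ↥P, (a' : Equiv.Perm α) = a := ⟨⟨a, ha⟩, rfl⟩
  obtain ⟨b', hb'⟩ : ∃ b' : ↥P, (b' : Equiv.Perm α) = b := ⟨⟨b, hb⟩, rfl⟩
  obtain ⟨k, hk⟩ := hP.index H
  have hidx : H.index ≤ Fintype.card α := by
    rw [hH, MulAction.index_stabilizer, ← Nat.card_eq_fintype_card]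
    exact Set.ncard_le_card _
  have hk2 : k < 2 := by
    have h1 : p ^ k < p ^ 2 := by
      rw [← hk]
      exact lt_of_le_of_lt hidx hcard
    exact (Nat.pow_lt_pow_iff_right hp.one_lt).1 h1
  have hk' : k = 0 ∨ k = 1 := by omega
  rcases hk' with hk0 | hk1
  · have htop : H = ⊤ := Subgroup.index_eq_one.1 (by rw [hk, hk0, pow_zero])
    have hax : a x = x := by
      rw [← ha']
      exact (hfix a').1 (by rw [htop]; exact Subgroup.mem_top _)
    have hbx : b x = x := by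
      rw [← hb']
      exact (hfix b').1 (by rw [htop]; exact Subgroup.mem_top _)
    calc (a * b) x = a (b x) := rfl
      _ = x := by rw [hbx, hax]
      _ = b (a x) := by rw [hax, hbx]
      _ = (b * a) x := rfl
  · have hidxp : H.index = p := by rw [hk, hk1, pow_one]
    obtain ⟨m, hm⟩ := IsPGroup.iff_card.1 hP
    have hm0 : m ≠ 0 := by
      intro h0
      have hdvd : H.index ∣ Nat.card ↥P := Subgroup.index_dvd_card H
      rw [hidxp, hm, h0, pow_zero] at hdvd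
      exact hp.one_lt.ne' (Nat.dvd_one.1 hdvd)
    have hnorm : H.Normal := Subgroup.normal_of_index_eq_minFac_card (by
      rw [hidxp, hm, Nat.pow_minFac hm0, hp.minFac_eq])
    have hcardQ : Nat.card (↥P ⧸ H) = p := by
      rw [← Subgroup.index_eq_card]
      exact hidxp
    have hcyc : IsCyclic (↥P ⧸ H) := isCyclic_of_prime_card hcardQ
    obtain ⟨g, hg⟩ := IsCyclic.exists_generator (α := ↥P ⧸ H)
    obtain ⟨i, hi⟩ := Subgroup.mem_zpowers_iff.1 (hg (QuotientGroup.mk a'))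
    obtain ⟨j, hj⟩ := Subgroup.mem_zpowers_iff.1 (hg (QuotientGroup.mk b'))
    have hc1 : (QuotientGroup.mk a' : ↥P ⧸ H) * QuotientGroup.mk b'
        = QuotientGroup.mk b' * QuotientGroup.mk a' := by
      rw [← hi, ← hj]
      exact (Commute.zpow_zpow_self g i j).eq
    have hc2 : (QuotientGroup.mk (a' * b') : ↥P ⧸ H) = QuotientGroup.mk (b' * a') := hc1
    have hmem : (a' * b')⁻¹ * (b' * a') ∈ H := QuotientGroup.eq.1 hc2
    have h3 := (hfix _).1 hmem
    rw [Subgroup.coe_mul, Subgroup.coe_inv, Subgroup.coe_mul, Subgroup.coe_mul, ha', hb'] at h3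
    have h4 : (a * b)⁻¹ ((b * a) x) = x := h3
    exact (Equiv.Perm.inv_eq_iff_eq.1 h4).symm

/-- Two elements of `p`-power order, one normalising the cyclic group generated by the other,
generate a `p`-group. -/
theorem isPGroup_sup_zpowers {G : Type*} [Group G] {p : ℕ} [Fact p.Prime] (a c : G) (i j k : ℕ)
    (ha : a ^ p ^ i = 1) (hc : c ^ p ^ j = 1) (hconj : a * c * a⁻¹ = c ^ k) :
    IsPGroup p ↥(Subgroup.zpowers a ⊔ Subgroup.zpowers c) := by
  have key : ∀ (b : G) (t : ℕ), b ^ p ^ t = 1 → IsPGroup p ↥(Subgroup.zpowers b) := by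
    intro b t hb g
    obtain ⟨m, hm⟩ := Subgroup.mem_zpowers_iff.1 g.2
    refine ⟨t, Subtype.ext ?_⟩
    rw [Subgroup.coe_pow, Subgroup.coe_one, ← hm, ← zpow_natCast, ← zpow_mul, mul_comm, zpow_mul,
      zpow_natCast, hb, one_zpow]
  have hfwd : ∀ h ∈ Subgroup.zpowers c, a * h * a⁻¹ ∈ Subgroup.zpowers c := by
    intro h hh
    obtain ⟨m, rfl⟩ := Subgroup.mem_zpowers_iff.1 hh
    rw [← conj_zpow, hconj]
    exact Subgroup.zpow_mem _ (Subgroup.pow_mem _ (Subgroup.mem_zpowers c) k) m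
  have hpow : ∀ (t : ℕ) (h : G), h ∈ Subgroup.zpowers c →
      a ^ t * h * (a ^ t)⁻¹ ∈ Subgroup.zpowers c := by
    intro t
    induction t with
    | zero =>
      intro h hh
      have e : a ^ 0 * h * (a ^ 0)⁻¹ = h := by simp
      rw [e]
      exact hh
    | succ t ih =>
      intro h hh
      have e : a ^ (t + 1) * h * (a ^ (t + 1))⁻¹ = a * (a ^ t * h * (a ^ t)⁻¹) * a⁻¹ := by
        rw [pow_succ', mul_inv_rev]
        simp only [mul_assoc]
      rw [e]
      exact hfwd _ (ih h hh)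
  have hainv : a ^ (p ^ i - 1) = a⁻¹ := by
    have hpos : 1 ≤ p ^ i := pow_pos (Fact.out : p.Prime).pos i
    have h1 : a ^ (p ^ i - 1) * a = 1 := by
      rw [← pow_succ, Nat.sub_add_cancel hpos, ha]
    exact eq_inv_of_mul_eq_one_left h1
  have hmem : a ∈ Subgroup.normalizer (Subgroup.zpowers c : Set G) := by
    rw [Subgroup.mem_normalizer_iff]
    intro h
    refine ⟨hfwd h, fun hh => ?_⟩
    have h2 := hpow (p ^ i - 1) _ hh
    rw [hainv] at h2
    have e : a⁻¹ * (a * h * a⁻¹) * a⁻¹⁻¹ = h := by group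
    rw [e] at h2
    exact h2
  exact IsPGroup.to_sup_of_normal_right' (key a i ha) (key c j hc) (Subgroup.zpowers_le.2 hmem)

/-- If a Sylow `p`-subgroup is abelian then any two elements of a `p`-subgroup commute. -/
theorem sylow_comm_of_isPGroup {G : Type*} [Group G] [Finite G] {p : ℕ} [Fact p.Prime]
    (S : Sylow p G)
    (hS : ∀ x ∈ (S : Subgroup G), ∀ y ∈ (S : Subgroup G), x * y = y * x)
    (Q : Subgroup G) (hQ : IsPGroup p ↥Q) {a c : G} (ha : a ∈ Q) (hc : c ∈ Q) :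
    a * c = c * a := by
  obtain ⟨g, hg⟩ := exists_conj_le_sylow S hQ
  have h1 : g * a * g⁻¹ ∈ (S : Subgroup G) := hg (Subgroup.mem_map.2 ⟨a, ha, rfl⟩)
  have h2 : g * c * g⁻¹ ∈ (S : Subgroup G) := hg (Subgroup.mem_map.2 ⟨c, hc, rfl⟩)
  have h3 := hS _ h1 _ h2
  have h4 : g * (a * c) * g⁻¹ = g * (c * a) * g⁻¹ := by
    calc g * (a * c) * g⁻¹ = (g * a * g⁻¹) * (g * c * g⁻¹) := by group
      _ = (g * c * g⁻¹) * (g * a * g⁻¹) := h3
      _ = g * (c * a) * g⁻¹ := by group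
  exact mul_left_cancel (mul_right_cancel h4)

/-- Transfer of a non-commuting pair to the alternating group on `Fin n`. -/
theorem alt_sylow_comm_transfer {n p : ℕ} [Fact p.Prime] (S : Sylow p (alternatingGroup (Fin n)))
    (hS : ∀ x ∈ (S : Subgroup (alternatingGroup (Fin n))),
      ∀ y ∈ (S : Subgroup (alternatingGroup (Fin n))), x * y = y * x)
    {α : Type} [Fintype α] [DecidableEq α] (hα : Fintype.card α ≤ n)
    (a c : Equiv.Perm α) (ha1 : Equiv.Perm.sign a = 1) (hc1 : Equiv.Perm.sign c = 1)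
    (i j k : ℕ) (ha : a ^ p ^ i = 1) (hc : c ^ p ^ j = 1) (hconj : a * c * a⁻¹ = c ^ k) :
    a * c = c * a := by
  classical
  obtain ⟨ι⟩ : Nonempty (α ↪ Fin n) :=
    Function.Embedding.nonempty_of_card_le (by rw [Fintype.card_fin]; exact hα)
  obtain ⟨φ, hφinj, hφsign⟩ : ∃ φ : Equiv.Perm α →* Equiv.Perm (Fin n), Function.Injective φ ∧
      ∀ g, Equiv.Perm.sign (φ g) = Equiv.Perm.sign g :=
    ⟨Equiv.Perm.extendDomainHom ι.toEquivRange, Equiv.Perm.extendDomainHom_injective _,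
      fun g => Equiv.Perm.sign_extendDomain g ι.toEquivRange⟩
  obtain ⟨A, hA⟩ : ∃ A : ↥(alternatingGroup (Fin n)), (A : Equiv.Perm (Fin n)) = φ a :=
    ⟨⟨φ a, Equiv.Perm.mem_alternatingGroup.2 ((hφsign a).trans ha1)⟩, rfl⟩
  obtain ⟨C, hC⟩ : ∃ C : ↥(alternatingGroup (Fin n)), (C : Equiv.Perm (Fin n)) = φ c :=
    ⟨⟨φ c, Equiv.Perm.mem_alternatingGroup.2 ((hφsign c).trans hc1)⟩, rfl⟩
  have hApow : A ^ p ^ i = 1 := Subtype.ext (by
    rw [Subgroup.coe_pow, Subgroup.coe_one, hA, ← map_pow, ha, map_one])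
  have hCpow : C ^ p ^ j = 1 := Subtype.ext (by
    rw [Subgroup.coe_pow, Subgroup.coe_one, hC, ← map_pow, hc, map_one])
  have hAC : A * C * A⁻¹ = C ^ k := Subtype.ext (by
    rw [Subgroup.coe_mul, Subgroup.coe_mul, Subgroup.coe_inv, Subgroup.coe_pow, hA, hC, ← map_inv,
      ← map_mul, ← map_mul, hconj, map_pow])
  have hQ := isPGroup_sup_zpowers A C i j k hApow hCpow hAC
  have hcomm : A * C = C * A := sylow_comm_of_isPGroup S hS _ hQ
    (Subgroup.mem_sup_left (Subgroup.mem_zpowers A))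
    (Subgroup.mem_sup_right (Subgroup.mem_zpowers C))
  have h2 : φ (a * c) = φ (c * a) := by
    rw [map_mul, map_mul, ← hA, ← hC, ← Subgroup.coe_mul, ← Subgroup.coe_mul, hcomm]
  exact hφinj h2

/-- A non-commuting pair generating a dihedral group of order 8 inside `A₆`. -/
theorem perm6_witness : ∃ a c : Equiv.Perm (Fin 6), Equiv.Perm.sign a = 1 ∧
    Equiv.Perm.sign c = 1 ∧ a ^ 2 ^ 1 = 1 ∧ c ^ 2 ^ 2 = 1 ∧ a * c * a⁻¹ = c ^ 3 ∧
    a * c ≠ c * a := by
  have h02 : Equiv.Perm.sign (Equiv.swap (0 : Fin 6) 2) = -1 := Equiv.Perm.sign_swap (by decide)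
  have h45 : Equiv.Perm.sign (Equiv.swap (4 : Fin 6) 5) = -1 := Equiv.Perm.sign_swap (by decide)
  have h01 : Equiv.Perm.sign (Equiv.swap (0 : Fin 6) 1) = -1 := Equiv.Perm.sign_swap (by decide)
  have h12 : Equiv.Perm.sign (Equiv.swap (1 : Fin 6) 2) = -1 := Equiv.Perm.sign_swap (by decide)
  have h23 : Equiv.Perm.sign (Equiv.swap (2 : Fin 6) 3) = -1 := Equiv.Perm.sign_swap (by decide)
  refine ⟨Equiv.swap 0 2 * Equiv.swap 4 5,
    Equiv.swap 0 1 * Equiv.swap 1 2 * Equiv.swap 2 3 * Equiv.swap 4 5, ?_, ?_, ?_, ?_, ?_, ?_⟩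
  · calc Equiv.Perm.sign (Equiv.swap (0 : Fin 6) 2 * Equiv.swap 4 5) = (-1) * (-1) := by
          rw [map_mul, h02, h45]
      _ = 1 := by decide
  · calc Equiv.Perm.sign
          (Equiv.swap (0 : Fin 6) 1 * Equiv.swap 1 2 * Equiv.swap 2 3 * Equiv.swap 4 5)
          = (-1) * (-1) * (-1) * (-1) := by
          rw [map_mul, map_mul, map_mul, h01, h12, h23, h45]
      _ = 1 := by decide
  · decide
  · decide
  · decide
  · decide

/-- translation by one on `ZMod N` -/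
def zmodTrans (N : ℕ) : Equiv.Perm (ZMod N) where
  toFun x := x + 1
  invFun x := x - 1
  left_inv x := add_sub_cancel_right x 1
  right_inv x := sub_add_cancel x 1

/-- multiplication by a unit on `ZMod N` -/
def zmodScale (N : ℕ) (u v : ZMod N) (h : v * u = 1) : Equiv.Perm (ZMod N) where
  toFun x := u * x
  invFun x := v * x
  left_inv x := by
    show v * (u * x) = x
    rw [← mul_assoc, h, one_mul]
  right_inv x := by
    show u * (v * x) = x
    rw [← mul_assoc, mul_comm u v, h, one_mul]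

theorem zmodTrans_pow (N : ℕ) (k : ℕ) (x : ZMod N) : (zmodTrans N ^ k) x = x + k := by
  induction k generalizing x with
  | zero => simp
  | succ k ih =>
    rw [pow_succ, Equiv.Perm.mul_apply, ih]
    show x + 1 + (k : ZMod N) = x + ((k + 1 : ℕ) : ZMod N)
    push_cast
    ring

theorem zmodScale_pow (N : ℕ) (u v : ZMod N) (h : v * u = 1) (k : ℕ) (x : ZMod N) :
    (zmodScale N u v h ^ k) x = u ^ k * x := by
  induction k generalizing x with
  | zero => simp
  | succ k ih =>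
    rw [pow_succ, Equiv.Perm.mul_apply, ih]
    show u ^ k * (u * x) = u ^ (k + 1) * x
    rw [pow_succ, mul_assoc]

/-- A non-commuting pair generating a group of order `p³` inside `Perm (ZMod (p²))`. -/
theorem zmod_witness (p : ℕ) (hp : 1 < p) :
    ∃ a c : Equiv.Perm (ZMod (p ^ 2)), a ^ p ^ 1 = 1 ∧ c ^ p ^ 2 = 1 ∧
      a * c * a⁻¹ = c ^ (1 + p) ∧ a * c ≠ c * a := by
  have hp2 : ((p : ZMod (p ^ 2))) ^ 2 = 0 := by
    have h4 : ((p ^ 2 : ℕ) : ZMod (p ^ 2)) = 0 := ZMod.natCast_self (p ^ 2)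
    rw [Nat.cast_pow] at h4
    exact h4
  have hu : ((1 : ZMod (p ^ 2)) + (p : ZMod (p ^ 2))) ^ p = 1 := by
    have h1 : ((p : ℕ) : ZMod (p ^ 2)) ∣ (1 + (p : ZMod (p ^ 2))) - 1 := by
      rw [add_sub_cancel_left]
    have h2 := dvd_sub_pow_of_dvd_sub h1 1
    have h3 : ((p : ZMod (p ^ 2)) ^ (1 + 1)) = 0 := hp2
    rw [h3, zero_dvd_iff, pow_one, one_pow, sub_eq_zero] at h2
    exact h2
  have hvu : ((1 : ZMod (p ^ 2)) - (p : ZMod (p ^ 2))) * (1 + (p : ZMod (p ^ 2))) = 1 := by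
    have e : ((1 : ZMod (p ^ 2)) - (p : ZMod (p ^ 2))) * (1 + (p : ZMod (p ^ 2)))
        = 1 - (p : ZMod (p ^ 2)) ^ 2 := by ring
    rw [e, hp2, sub_zero]
  refine ⟨zmodScale (p ^ 2) _ _ hvu, zmodTrans (p ^ 2), ?_, ?_, ?_, ?_⟩
  · refine Equiv.ext fun x => ?_
    have e1 : (zmodScale (p ^ 2) _ _ hvu ^ p ^ 1) x = x := by
      rw [pow_one, zmodScale_pow, hu, one_mul]
    exact e1
  · refine Equiv.ext fun x => ?_
    have e1 : (zmodTrans (p ^ 2) ^ p ^ 2) x = x := by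
      rw [zmodTrans_pow, ZMod.natCast_self, add_zero]
    exact e1
  · refine Equiv.ext fun x => ?_
    have e1 : (zmodTrans (p ^ 2) ^ (1 + p)) x = x + ((1 + p : ℕ) : ZMod (p ^ 2)) :=
      zmodTrans_pow _ _ _
    have e2 : ((zmodScale (p ^ 2) _ _ hvu * zmodTrans (p ^ 2) * (zmodScale (p ^ 2) _ _ hvu)⁻¹ :
        Equiv.Perm (ZMod (p ^ 2)))) x
        = (1 + (p : ZMod (p ^ 2))) * ((1 - (p : ZMod (p ^ 2))) * x + 1) := rfl
    have e3 : (1 + (p : ZMod (p ^ 2))) * ((1 - (p : ZMod (p ^ 2))) * x + 1)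
        = ((1 - (p : ZMod (p ^ 2))) * (1 + (p : ZMod (p ^ 2)))) * x
          + (1 + (p : ZMod (p ^ 2))) := by ring
    rw [e1, e2, e3, hvu, one_mul, Nat.cast_add, Nat.cast_one]
  · intro hcomm
    have h5 := congrArg (fun f : Equiv.Perm (ZMod (p ^ 2)) => f 0) hcomm
    have h6 : (1 + (p : ZMod (p ^ 2))) * ((0 : ZMod (p ^ 2)) + 1)
        = (1 + (p : ZMod (p ^ 2))) * 0 + 1 := h5
    rw [zero_add, mul_one, mul_zero, zero_add] at h6
    have h7 : (p : ZMod (p ^ 2)) = 0 := by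
      calc (p : ZMod (p ^ 2)) = (1 + (p : ZMod (p ^ 2))) - 1 := by ring
        _ = 1 - 1 := by rw [h6]
        _ = 0 := sub_self 1
    rw [ZMod.natCast_eq_zero_iff] at h7
    have h8 : p ^ 2 ≤ p := Nat.le_of_dvd (by omega) h7
    have h9 : p * 2 ≤ p * p := Nat.mul_le_mul_left p hp
    rw [pow_two] at h8
    omega

theorem sign_eq_one_of_pow_odd {α : Type*} [Fintype α] [DecidableEq α] (g : Equiv.Perm α)
    (m : ℕ) (hm : Odd m) (h : g ^ m = 1) : Equiv.Perm.sign g = 1 := by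
  have h1 : Equiv.Perm.sign g ^ m = 1 := by rw [← map_pow, h, map_one]
  rcases Int.units_eq_one_or (Equiv.Perm.sign g) with h2 | h2
  · exact h2
  · rw [h2, hm.neg_one_pow] at h1
    exact absurd h1 (by decide)

/-- For `n ≥ 6`, a Sylow `p`-subgroup of `A_n` is abelian iff `n < p²`. -/
theorem alt_sylow_abelian_iff (n p : ℕ) (hn : 6 ≤ n) [Fact p.Prime]
    (S : Sylow p (alternatingGroup (Fin n))) :
    IsMulCommutative ↥S ↔ n < p ^ 2 := by
  have hp := (Fact.out : p.Prime)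
  constructor
  · intro hcomm
    by_contra hlt
    have hle : p ^ 2 ≤ n := not_lt.1 hlt
    have hS : ∀ x ∈ (S : Subgroup (alternatingGroup (Fin n))),
        ∀ y ∈ (S : Subgroup (alternatingGroup (Fin n))), x * y = y * x :=
      fun x hx y hy => congrArg Subtype.val (isMulCommutative_iff.1 hcomm ⟨x, hx⟩ ⟨y, hy⟩)
    rcases hp.eq_two_or_odd' with h2 | hodd
    · subst h2
      obtain ⟨a, c, ha1, hc1, ha, hc, hconj, hne⟩ := perm6_witness
      exact hne (alt_sylow_comm_transfer S hS (by rw [Fintype.card_fin]; exact hn) a c ha1 hc1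
        1 2 3 ha hc hconj)
    · have hN : NeZero (p ^ 2) := ⟨pow_ne_zero 2 hp.ne_zero⟩
      obtain ⟨a, c, ha, hc, hconj, hne⟩ := zmod_witness p hp.one_lt
      have ha1 : Equiv.Perm.sign a = 1 := sign_eq_one_of_pow_odd a (p ^ 1) hodd.pow ha
      have hc1 : Equiv.Perm.sign c = 1 := sign_eq_one_of_pow_odd c (p ^ 2) hodd.pow hc
      exact hne (alt_sylow_comm_transfer S hS (by rw [ZMod.card]; exact hle) a c ha1 hc1
        1 2 (1 + p) ha hc hconj)
  · intro hlt
    have hP : IsPGroup p ↥((S : Subgroup (alternatingGroup (Fin n))).map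
        (alternatingGroup (Fin n)).subtype) := S.isPGroup'.map _
    refine isMulCommutative_iff.2 fun x y => ?_
    have h := perm_pgroup_comm_of_card_lt _ hP (by rw [Fintype.card_fin]; exact hlt)
      (a := ((x : alternatingGroup (Fin n)) : Equiv.Perm (Fin n)))
      (b := ((y : alternatingGroup (Fin n)) : Equiv.Perm (Fin n)))
      (Subgroup.mem_map.2 ⟨x.1, x.2, rfl⟩) (Subgroup.mem_map.2 ⟨y.1, y.2, rfl⟩)
    exact Subtype.ext (Subtype.ext h)

end Cfsg.Agent.Helper26
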