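import Cfsg.Agent.Helper27.CentricExt

set_option autoImplicit false

namespace Cfsg.Agent.Helper26

open Cfsg Cfsg.FusionSystem

variable {Ω : Type*} [Group Ω] {S : Subgroup Ω}

theorem centric_unique_normal [Finite S] (p : ℕ) [Fact p.Prime] (hS : IsPGroup p S)
    (F : FusionSystem S) (hF : F.IsSaturated p) {P Q : Subgroup Ω} (hQP : Q ≤ P)
    (hQ : F.IsCentric Q) (hnorm : ∀ g ∈ P, ∀ u ∈ Q, g * u * g⁻¹ ∈ Q)
    {φ φ' : P →* Ω} (hφ : φ ∈ F.Hom P) (hφ' : φ' ∈ F.Hom P)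
    (h : ∀ x : P, (x : Ω) ∈ Q → φ x = φ' x) :
    ∃ z : P, (z : Ω) ∈ Q ∧ (z : Ω) ∈ Subgroup.centralizer (Q : Set Ω) ∧
      ∀ y : P, φ' y = φ (z * y * z⁻¹) := by
  obtain ⟨z, hz, hzQ, hconj⟩ := Helper27.centric_ext_unique p hS F hF hQP hQ hnorm hφ hφ'
    (fun u hu => (h ⟨u, hQP hu⟩ hu).symm)
  refine ⟨⟨z, hz⟩, hzQ, ?_, hconj⟩
  rw [Subgroup.mem_centralizer_iff]
  intro u hu
  have h1 := hconj ⟨u, hQP hu⟩
  rw [← h ⟨u, hQP hu⟩ hu] at h1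
  have h2 := F.injective_of_mem hφ h1
  have h3 : u = z * u * z⁻¹ := congrArg Subtype.val h2
  calc u * z = (z * u * z⁻¹) * z := by rw [← h3]
    _ = z * u := by group

theorem centric_unique_aux [Finite S] (p : ℕ) [Fact p.Prime] (hS : IsPGroup p S)
    (F : FusionSystem S) (hF : F.IsSaturated p) :
    ∀ (n : ℕ) (P Q : Subgroup Ω) (hQP : Q ≤ P), F.IsCentric Q → ∀ (φ φ' : P →* Ω),
      φ ∈ F.Hom P → φ' ∈ F.Hom P → Nat.card P ≤ Nat.card Q + n →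
      (∀ x : P, (x : Ω) ∈ Q → φ x = φ' x) →
      ∃ z : P, (z : Ω) ∈ Q ∧ (z : Ω) ∈ Subgroup.centralizer (Q : Set Ω) ∧
        ∀ y : P, φ' y = φ (z * y * z⁻¹) := by
  intro n
  induction n with
  | zero =>
    intro P Q hQP hQ φ φ' hφ hφ' hcard h
    have hPS : P ≤ S := (F.le_of_mem hφ).1
    have hPfin : Finite P := finite_of_le hPS
    have hPQ : Q = P := Subgroup.eq_of_le_of_card_ge hQP hcard
    refine centric_unique_normal p hS F hF hQP hQ ?_ hφ hφ' h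
    intro g hg u hu
    rw [← hPQ] at hg
    exact Q.mul_mem (Q.mul_mem hg hu) (Q.inv_mem hg)
  | succ n ih =>
    intro P Q hQP hQ φ φ' hφ hφ' hcard h
    have hPS : P ≤ S := (F.le_of_mem hφ).1
    have hPfin : Finite P := finite_of_le hPS
    have hQS : Q ≤ S := hQP.trans hPS
    by_cases hnorm : ∀ g ∈ P, ∀ u ∈ Q, g * u * g⁻¹ ∈ Q
    · exact centric_unique_normal p hS F hF hQP hQ hnorm hφ hφ' h
    · have hne : Q ≠ P := by
        intro hPQ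
        apply hnorm
        intro g hg u hu
        rw [← hPQ] at hg
        exact Q.mul_mem (Q.mul_mem hg hu) (Q.inv_mem hg)
      obtain ⟨a, haP, haQ, haN⟩ := exists_normalizing_not_mem (hS.to_le hPS) hQP hne
      obtain ⟨Q₁, hQ₁⟩ : ∃ Q₁ : Subgroup Ω, Q₁ = P ⊓ Subgroup.normalizer (Q : Set Ω) :=
        ⟨_, rfl⟩
      have hQ₁P : Q₁ ≤ P := hQ₁ ▸ inf_le_left
      have hQQ₁ : Q ≤ Q₁ := hQ₁ ▸ le_inf hQP Subgroup.le_normalizer
      have hQ₁fin : Finite Q₁ := finite_of_le (hQ₁P.trans hPS)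
      have hlt : Nat.card Q < Nat.card Q₁ := by
        by_contra hcon
        have heq : Q = Q₁ := Subgroup.eq_of_le_of_card_ge hQQ₁ (not_lt.1 hcon)
        apply haQ
        rw [heq, hQ₁]
        exact Subgroup.mem_inf.2 ⟨haP, haN⟩
      have hnorm₁ : ∀ g ∈ Q₁, ∀ u ∈ Q, g * u * g⁻¹ ∈ Q := by
        intro g hg u hu
        rw [hQ₁] at hg
        exact (Subgroup.mem_normalizer_iff.1 (Subgroup.mem_inf.1 hg).2 u).1 hu
      have hφ₁ : φ.comp (Subgroup.inclusion hQ₁P) ∈ F.Hom Q₁ :=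
        restrict_mem F hφ hQ₁P (fun _ => rfl)
      have hφ'₁ : φ'.comp (Subgroup.inclusion hQ₁P) ∈ F.Hom Q₁ :=
        restrict_mem F hφ' hQ₁P (fun _ => rfl)
      obtain ⟨z₀, hz₀Q, hz₀C, hz₀⟩ := centric_unique_normal p hS F hF hQQ₁ hQ hnorm₁ hφ₁ hφ'₁
        (fun x hx => h (Subgroup.inclusion hQ₁P x) hx)
      obtain ⟨z, hz⟩ : ∃ z : P, z = Subgroup.inclusion hQ₁P z₀ := ⟨_, rfl⟩
      have hφ'' : φ.comp (MulAut.conj z).toMonoidHom ∈ F.Hom P :=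
        comp_mem' F (F.conj_mem hPS (hPS z.2)) hφ (fun x => ⟨(z * x * z⁻¹).2, rfl⟩)
      have hagree : ∀ x : P, (x : Ω) ∈ Q₁ →
          (φ.comp (MulAut.conj z).toMonoidHom) x = φ' x := by
        intro x hx
        have h1 := hz₀ ⟨x, hx⟩
        have e : Subgroup.inclusion hQ₁P (z₀ * ⟨x, hx⟩ * z₀⁻¹) = z * x * z⁻¹ := by
          rw [hz]; rfl
        have h2 : φ' x = φ (Subgroup.inclusion hQ₁P (z₀ * ⟨x, hx⟩ * z₀⁻¹)) := h1
        rw [e] at h2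
        exact h2.symm
      have hcard' : Nat.card P ≤ Nat.card Q₁ + n := by omega
      obtain ⟨z₁, hz₁Q, hz₁C, hz₁⟩ := ih P Q₁ hQ₁P
        (Helper27.centric_of_le F hQ hQQ₁ (hQ₁P.trans hPS)) _ φ' hφ'' hφ' hcard' hagree
      have hz₁C' : (z₁ : Ω) ∈ Subgroup.centralizer (Q : Set Ω) :=
        Subgroup.centralizer_le hQQ₁ hz₁C
      have hz₁Q' : (z₁ : Ω) ∈ Q := by
        apply hQ.2 Q (isConj_refl F hQS)
        exact Subgroup.mem_inf.2 ⟨hPS z₁.2, hz₁C'⟩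
      have hzQ : (z : Ω) ∈ Q := by rw [hz]; exact hz₀Q
      have hzC : (z : Ω) ∈ Subgroup.centralizer (Q : Set Ω) := by rw [hz]; exact hz₀C
      refine ⟨z * z₁, Q.mul_mem hzQ hz₁Q', Subgroup.mul_mem _ hzC hz₁C', fun y => ?_⟩
      rw [hz₁ y]
      show φ (z * (z₁ * y * z₁⁻¹) * z⁻¹) = φ (z * z₁ * y * (z * z₁)⁻¹)
      congr 1
      group

theorem centric_unique [Finite S] (p : ℕ) [Fact p.Prime] (hS : IsPGroup p S)
    (F : FusionSystem S) (hF : F.IsSaturated p) (P Q : Subgroup Ω) (hQP : Q ≤ P)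
    (hQ : F.IsCentric Q) (φ φ' : P →* Ω) (hφ : φ ∈ F.Hom P) (hφ' : φ' ∈ F.Hom P)
    (h : ∀ x : P, (x : Ω) ∈ Q → φ x = φ' x) :
    ∃ z : P, (z : Ω) ∈ Q ∧ (z : Ω) ∈ Subgroup.centralizer (Q : Set Ω) ∧
      ∀ y : P, φ' y = φ (z * y * z⁻¹) :=
  centric_unique_aux p hS F hF (Nat.card P) P Q hQP hQ φ φ' hφ hφ' (Nat.le_add_left _ _) h

end Cfsg.Agent.Helper26
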