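import Cfsg.Agent.Helper26.FusionNormal4

set_option autoImplicit false

namespace Cfsg.Agent.Helper26

open Cfsg Cfsg.FusionSystem
open scoped commutatorElement

def classTwoChain {G : Type*} [Group G] (S : Subgroup G) : ℕ → Subgroup G
  | 0 => ⊥
  | 1 => S ⊓ Subgroup.centralizer (S : Set G)
  | (_ + 2) => S

theorem classTwo_normal {G : Type*} [Group G] [Finite G] (p : ℕ) [Fact p.Prime] (S : Sylow p G)
    (hcl : ⁅(S : Subgroup G), (S : Subgroup G)⁆ ≤
      (S : Subgroup G) ⊓ Subgroup.centralizer ((S : Subgroup G) : Set G))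
    (hZ : Cfsg.IsStronglyClosed
      ((S : Subgroup G) ⊓ Subgroup.centralizer ((S : Subgroup G) : Set G)) (S : Subgroup G)) :
    (groupFusionSystem (S : Subgroup G)).IsNormal (S : Subgroup G) := by
  have hF := groupFusion_saturated p S
  have hS : IsPGroup p (S : Subgroup G) := S.isPGroup'
  have hZsc : (groupFusionSystem (S : Subgroup G)).StronglyClosed
      ((S : Subgroup G) ⊓ Subgroup.centralizer ((S : Subgroup G) : Set G)) := by
    refine ⟨inf_le_left, fun R hR φ hφ x => ?_⟩
    obtain ⟨-, hφS, g, hg⟩ := hφ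
    have h1 := hφS x
    rw [hg x] at h1 ⊢
    exact hZ.2 x (hR x.2) g h1
  have hSsc : (groupFusionSystem (S : Subgroup G)).StronglyClosed (S : Subgroup G) :=
    ⟨le_rfl, fun R _ φ hφ x => ((groupFusionSystem (S : Subgroup G)).le_of_mem hφ).2 x⟩
  apply normal_of_series p hS _ hF (classTwoChain (S : Subgroup G)) 2 rfl
  · intro i
    match i with
    | 0 => exact bot_le
    | 1 => exact inf_le_left
    | (i + 2) => exact le_rfl
  · intro i hi
    match i with
    | 0 => exact stronglyClosed_bot _
    | 1 => exact hZsc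
    | 2 => exact hSsc
  · intro i hi
    match i with
    | 0 =>
      show ⁅(S : Subgroup G), (S : Subgroup G) ⊓ Subgroup.centralizer ((S : Subgroup G) : Set G)⁆
        ≤ ⊥
      rw [Subgroup.commutator_le]
      intro a ha b hb
      rw [Subgroup.mem_bot, commutatorElement_def]
      have h1 := Subgroup.mem_centralizer_iff.1 hb.2 a ha
      rw [h1]
      group
    | 1 => exact hcl
  · intro P _ _ γ _
    refine ⟨0, fun x hx => ?_⟩
    have hx' : (x : G) ∈ (⊥ : Subgroup G) := hx
    rw [Subgroup.mem_bot] at hx'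
    have hx1 : x = 1 := Subtype.ext hx'
    rw [hx1, map_one]

theorem classTwo_control {G : Type*} [Group G] [Finite G] (p : ℕ) [Fact p.Prime] (S : Sylow p G)
    (hcl : ⁅(S : Subgroup G), (S : Subgroup G)⁆ ≤
      (S : Subgroup G) ⊓ Subgroup.centralizer ((S : Subgroup G) : Set G))
    (hZ : Cfsg.IsStronglyClosed
      ((S : Subgroup G) ⊓ Subgroup.centralizer ((S : Subgroup G) : Set G)) (S : Subgroup G)) :
    (∀ (P : Subgroup G) (φ : P →* G), φ ∈ (Cfsg.groupFusionSystem (S : Subgroup G)).Hom P →
      ∃ g ∈ Subgroup.normalizer ((S : Subgroup G) : Set G), ∀ x : P, φ x = g * (x : G) * g⁻¹) ∧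
    (Cfsg.groupFusionSystem (S : Subgroup G)).core = S := by
  have hn := classTwo_normal p S hcl hZ
  constructor
  · intro P φ hφ
    obtain ⟨ψ, hψ, hψφ, hmap⟩ := hn.2 P φ hφ
    obtain ⟨-, hψS, g, hg⟩ := hψ
    refine ⟨g, ?_, fun x => ?_⟩
    · rw [Subgroup.mem_normalizer_iff]
      intro s
      constructor
      · intro hs
        have h1 := hψS ⟨s, (le_sup_right : (S : Subgroup G) ≤ P ⊔ (S : Subgroup G)) hs⟩
        rw [hg] at h1
        exact h1
      · intro hs
        obtain ⟨w, hw, hw'⟩ := hmap.ge hs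
        rw [hg] at hw'
        have e : (w : G) = s := mul_left_cancel (mul_right_cancel hw')
        rw [← e]
        exact Subgroup.mem_subgroupOf.1 hw
    · rw [← hψφ x, hg]
      rfl
  · apply le_antisymm
    · exact sSup_le (fun Q hQ => hQ.1)
    · exact le_sSup hn

end Cfsg.Agent.Helper26
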