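import Cfsg.Agent.Helper26.PPowerSub
import Cfsg.Agent.Helper26.GroupHyp
import Cfsg.Agent.Helper26.FusionHyp2
import Cfsg.Agent.Helper27.NormalSub

set_option autoImplicit false

namespace Cfsg.Agent.Helper26

open Cfsg Cfsg.FusionSystem

theorem subgroupFusion_autGroup_ge {G : Type*} [Group G] {H T P : Subgroup G} (hTH : T ≤ H)
    (hPT : P ≤ T) : autInducedBy H P ≤ (fusionSystemOfSubgroup H T hTH).autGroup P := by
  intro α hα
  obtain ⟨g, hg, h⟩ := mem_autInducedBy_iff.1 hα
  rw [mem_autGroup_iff _ hPT]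
  exact ⟨hPT, fun x => hPT (α x).2, g, hg, h⟩

theorem pResidual_groupAut_le {G : Type*} [Group G] [Finite G] (p : ℕ) [Fact p.Prime]
    (S : Subgroup G) {P : Subgroup G} (hPS : P ≤ S) :
    (pResidual p ((groupFusionSystem S).autGroup P)).map
      ((groupFusionSystem S).autGroup P).subtype ≤ autInducedBy (pResidual p G) P := by
  rw [Subgroup.map_le_iff_le_comap]
  show Subgroup.closure {a : ↥((groupFusionSystem S).autGroup P) | Nat.Coprime (orderOf a) p} ≤ _
  rw [Subgroup.closure_le]
  intro a ha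
  show (a : MulAut P) ∈ autInducedBy (pResidual p G) P
  have ha2 : (a : MulAut P) ∈ autInducedBy ⊤ P :=
    (groupFusion_autGroup (S := S) hPS).le a.2
  rw [autInducedBy_eq_map] at ha2 ⊢
  obtain ⟨n, -, hna⟩ := ha2
  obtain ⟨k, hk1, hk2⟩ := exists_pow_pPrimePart a n ha
  refine ⟨n ^ k, Subgroup.mem_subgroupOf.2 ?_, ?_⟩
  · show ((n ^ k : ↥(Subgroup.normalizer (P : Set G))) : G) ∈
      Subgroup.closure {g : G | Nat.Coprime (orderOf g) p}
    apply Subgroup.subset_closure
    show Nat.Coprime (orderOf ((n ^ k : ↥(Subgroup.normalizer (P : Set G))) : G)) p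
    rw [Subgroup.orderOf_coe]
    exact hk1
  · rw [map_pow, hna, ← Subgroup.coe_pow, hk2]

/-- The `p`-residual subsystem of the fusion system of a finite group is the fusion system of
`O^p(G)`. -/
theorem pResidual_groupFusion {G : Type*} [Group G] [Finite G] (p : ℕ) [Fact p.Prime]
    (S : Sylow p G)
    (E : FusionSystem ((groupFusionSystem (S : Subgroup G)).hyperfocalSubgroup p))
    (hE : (groupFusionSystem (S : Subgroup G)).IsPResidual p E) :
    ∃ h : (S : Subgroup G) ⊓ pResidual p G ≤ pResidual p G,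
      ∀ P : Subgroup G, E.Hom P = (fusionSystemOfSubgroup (pResidual p G)
        ((S : Subgroup G) ⊓ pResidual p G) h).Hom P := by
  have hN : (pResidual p G).Normal := pResidual_normal p G
  have hSp : IsPGroup p (S : Subgroup G) := S.isPGroup'
  obtain ⟨hEsat, hEidx⟩ := hE
  have h : (S : Subgroup G) ⊓ pResidual p G ≤ pResidual p G := inf_le_right
  refine ⟨h, ?_⟩
  have hE₂sat : (fusionSystemOfSubgroup (pResidual p G)
      ((S : Subgroup G) ⊓ pResidual p G) h).IsSaturated p :=
    Helper27.subgroupFusion_saturated p S (pResidual p G)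
  have hE₂F : (fusionSystemOfSubgroup (pResidual p G)
      ((S : Subgroup G) ⊓ pResidual p G) h).IsSubsystemOf
      (groupFusionSystem (S : Subgroup G)) := by
    rintro P φ ⟨hP, hφ, g, -, hg⟩
    exact ⟨hP.trans inf_le_left, fun x => (Subgroup.mem_inf.1 (hφ x)).1, g, hg⟩
  have hE₂idx : (fusionSystemOfSubgroup (pResidual p G)
      ((S : Subgroup G) ⊓ pResidual p G) h).HasPPowerIndexIn
      (groupFusionSystem (S : Subgroup G)) p := by
    refine ⟨hE₂F, groupHyp_le p (S : Subgroup G), fun P hPT => ?_⟩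
    exact (pResidual_groupAut_le p (S : Subgroup G) (hPT.trans inf_le_left)).trans
      (subgroupFusion_autGroup_ge h hPT)
  intro P
  apply Set.Subset.antisymm
  · exact subsystem_of_pPowerIndex p hSp _ E hEsat hEidx.1 _ (groupHyp_le p (S : Subgroup G))
      hE₂idx P
  · exact subsystem_of_pPowerIndex p hSp _ _ hE₂sat hE₂F E (groupHyp_ge p S) hEidx P

end Cfsg.Agent.Helper26
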