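import Cfsg.Agent.Helper26.FusionModel

set_option autoImplicit false

namespace Cfsg.Agent.Helper26

open Cfsg Cfsg.FusionSystem

theorem crossed_coboundary {G A : Type*} [Group G] [CommGroup A] (φ : G →* MulAut A)
    (T : Subgroup G) [Finite (G ⧸ T)] (η : G → A)
    (hη : ∀ h g, η (h * g) = η h * φ h (η g))
    (hT : ∀ t ∈ T, η t = 1) (e : ℤ) (he : ∀ a : A, (a ^ T.index) ^ e = a) :
    ∃ z : A, ∀ h, η h = z * (φ h z)⁻¹ := by
  classical
  letI := Fintype.ofFinite (G ⧸ T)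
  have hcos : ∀ (g : G) (t : T), η (g * t) = η g := by
    intro g t
    rw [hη, hT t t.2, map_one, mul_one]
  have hout : ∀ (h : G) (q : G ⧸ T), η ((h • q).out) = η (h * q.out) := by
    intro h q
    obtain ⟨t, ht⟩ := QuotientGroup.mk_out_eq_mul T (h * q.out)
    have e1 : (QuotientGroup.mk (h * q.out) : G ⧸ T) = h • q := by
      have e2 : (QuotientGroup.mk (h * q.out) : G ⧸ T) =
          h • (QuotientGroup.mk q.out : G ⧸ T) := rfl
      rw [e2, QuotientGroup.out_eq']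
    rw [← e1, ht, hcos]
  obtain ⟨w, hw⟩ : ∃ w : A, w = ∏ q : G ⧸ T, η q.out := ⟨_, rfl⟩
  have key : ∀ h : G, η h ^ T.index * φ h w = w := by
    intro h
    have h1 : ∏ q : G ⧸ T, η ((h • q).out) = ∏ q : G ⧸ T, η q.out :=
      Equiv.prod_comp (MulAction.toPerm h) (fun q : G ⧸ T => η q.out)
    have h2 : ∏ q : G ⧸ T, η ((h • q).out) = η h ^ T.index * φ h w := by
      have h2a : ∏ q : G ⧸ T, η ((h • q).out) = ∏ q : G ⧸ T, (η h * φ h (η q.out)) :=
        Finset.prod_congr rfl (fun q _ => by rw [hout, hη])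
      rw [h2a, Finset.prod_mul_distrib, Finset.prod_const, Finset.card_univ, ← map_prod (φ h),
        ← hw, Subgroup.index, Nat.card_eq_fintype_card]
    rw [← h2, h1, hw]
  refine ⟨w ^ e, fun h => ?_⟩
  have h3 : η h ^ T.index = w * (φ h w)⁻¹ := eq_mul_inv_of_mul_eq (key h)
  calc η h = (η h ^ T.index) ^ e := (he _).symm
    _ = (w * (φ h w)⁻¹) ^ e := by rw [h3]
    _ = w ^ e * (φ h (w ^ e))⁻¹ := by rw [mul_zpow, inv_zpow, map_zpow]

open scoped IsMulCommutative in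
theorem model_rigid {Ω : Type*} [Group Ω] {S : Subgroup Ω} {G : Type*} [Group G] [Finite G]
    (p : ℕ) [Fact p.Prime] (ι : S →* G) (hι : Function.Injective ι) (T : Sylow p G)
    (hT : (T : Subgroup G) = ι.range)
    (hcen : Subgroup.centralizer ((pCore p G : Subgroup G) : Set G) ≤ pCore p G)
    (ψ : G ≃* G) (hψ : ∀ x : S, ψ (ι x) = ι x) :
    ∃ z : S, z ∈ Subgroup.center S ∧ ∀ g : G, ψ g = ι z * g * (ι z)⁻¹ := by
  have hKn := Helper27.pCore_normal' p G
  have hKp := Helper27.pCore_isPGroup p G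
  have hKT : pCore p G ≤ ι.range := hT ▸ pCore_le_sylow T
  have hψK : ∀ k ∈ pCore p G, ψ k = k := by
    intro k hk
    obtain ⟨s, rfl⟩ := hKT hk
    exact hψ s
  obtain ⟨Z, hZ⟩ : ∃ Z : Subgroup G, Z = pCore p G ⊓
      Subgroup.centralizer ((pCore p G : Subgroup G) : Set G) := ⟨_, rfl⟩
  have hZmem : ∀ x, x ∈ Z ↔ x ∈ pCore p G ∧ ∀ k ∈ pCore p G, k * x = x * k := by
    intro x; rw [hZ, Subgroup.mem_inf, Subgroup.mem_centralizer_iff]; rfl
  have hZn : Z.Normal := by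
    refine ⟨fun z hz g => ?_⟩
    rw [hZmem] at hz ⊢
    refine ⟨hKn.conj_mem z hz.1 g, fun k hk => ?_⟩
    have hk' : g⁻¹ * k * g ∈ pCore p G := by
      have := hKn.conj_mem k hk g⁻¹
      simpa using this
    have h1 := hz.2 (g⁻¹ * k * g) hk'
    calc k * (g * z * g⁻¹) = g * ((g⁻¹ * k * g) * z) * g⁻¹ := by group
      _ = g * (z * (g⁻¹ * k * g)) * g⁻¹ := by rw [h1]
      _ = g * z * g⁻¹ * k := by group
  have hη : ∀ g : G, ψ g * g⁻¹ ∈ Z := by
    intro g
    have h1 : g⁻¹ * ψ g ∈ Subgroup.centralizer ((pCore p G : Subgroup G) : Set G) := by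
      rw [Subgroup.mem_centralizer_iff]
      intro k hk
      have h2 := hψK _ (hKn.conj_mem k hk g)
      rw [map_mul, map_mul, map_inv, hψK k hk] at h2
      calc k * (g⁻¹ * ψ g) = g⁻¹ * (g * k * g⁻¹) * ψ g := by group
        _ = g⁻¹ * (ψ g * k * (ψ g)⁻¹) * ψ g := by rw [h2]
        _ = g⁻¹ * ψ g * k := by group
    have h3 : g⁻¹ * ψ g ∈ Z := by rw [hZ]; exact Subgroup.mem_inf.2 ⟨hcen h1, h1⟩
    have h4 := hZn.conj_mem _ h3 g
    have e : g * (g⁻¹ * ψ g) * g⁻¹ = ψ g * g⁻¹ := by group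
    rw [e] at h4; exact h4
  haveI hZc : IsMulCommutative Z := isMulCommutative_iff.2
    (fun a b => Subtype.ext (((hZmem b).1 b.2).2 a ((hZmem a).1 a.2).1))
  haveI := hZn
  have hZp : IsPGroup p Z := hKp.to_le (by rw [hZ]; exact inf_le_left)
  have hco : (Nat.card Z).Coprime (T : Subgroup G).index := by
    obtain ⟨k, hk⟩ := hZp.exists_card_eq
    rw [hk]
    exact Nat.Coprime.pow_left k ((Nat.Prime.coprime_iff_not_dvd Fact.out).2 T.not_dvd_index)
  have hcr := crossed_coboundary (MulAut.conjNormal (H := Z)) (T : Subgroup G)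
    (fun g => (⟨ψ g * g⁻¹, hη g⟩ : Z))
    (by
      intro h g
      apply Subtype.ext
      rw [Subgroup.coe_mul, MulAut.conjNormal_apply]
      show ψ (h * g) * (h * g)⁻¹ = ψ h * h⁻¹ * (h * (ψ g * g⁻¹) * h⁻¹)
      rw [map_mul]; group)
    (by
      intro t ht
      apply Subtype.ext
      show ψ t * t⁻¹ = 1
      rw [hT] at ht
      obtain ⟨s, rfl⟩ := ht
      rw [hψ s, mul_inv_cancel])
    _ (fun a => (powCoprime hco).left_inv a)
  obtain ⟨z, hz⟩ := hcr
  have hzK : (z : G) ∈ pCore p G := ((hZmem z).1 z.2).1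
  obtain ⟨z₀, hz₀⟩ := hKT hzK
  have hconj : ∀ g : G, ψ g = ι z₀ * g * (ι z₀)⁻¹ := by
    intro g
    have h1 := congrArg Subtype.val (hz g)
    rw [Subgroup.coe_mul, Subgroup.coe_inv, MulAut.conjNormal_apply] at h1
    have h2 : ψ g * g⁻¹ = (z : G) * ((g * (z : G) * g⁻¹))⁻¹ := h1
    rw [hz₀]
    calc ψ g = (ψ g * g⁻¹) * g := by group
      _ = ((z : G) * ((g * (z : G) * g⁻¹))⁻¹) * g := by rw [h2]
      _ = (z : G) * g * (z : G)⁻¹ := by group
  refine ⟨z₀, ?_, hconj⟩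
  rw [Subgroup.mem_center_iff]
  intro s
  have h1 := hconj (ι s)
  rw [hψ s] at h1
  have h2 : ι (s * z₀) = ι (z₀ * s) := by
    rw [map_mul, map_mul]
    calc ι s * ι z₀ = (ι z₀ * ι s * (ι z₀)⁻¹) * ι z₀ := by rw [← h1]
      _ = ι z₀ * ι s := by group
  exact hι h2

end Cfsg.Agent.Helper26
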