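import Cfsg.Agent.Helper26.AutInduced

set_option autoImplicit false

namespace Cfsg.Agent.Helper26

open scoped commutatorElement

theorem commutator_normalClosure_le {P : Type*} [Group P] {E : Subgroup P}
    (hE : IsMulCommutative ↥E) :
    ⁅Subgroup.normalClosure (E : Set P), Subgroup.normalClosure (E : Set P)⁆ ≤
      Subgroup.lowerCentralSeries (⊤ : Subgroup P) 2 := by
  have hP'n : (Subgroup.lowerCentralSeries (⊤ : Subgroup P) 1).Normal := inferInstance
  have hΓn : (Subgroup.lowerCentralSeries (⊤ : Subgroup P) 2).Normal := inferInstance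
  have hmem1 : ∀ g n : P, ⁅g, n⁆ ∈ Subgroup.lowerCentralSeries (⊤ : Subgroup P) 1 := by
    intro g n
    show ⁅g, n⁆ ∈ ⁅(⊤ : Subgroup P), ⊤⁆
    exact Subgroup.commutator_mem_commutator (Subgroup.mem_top g) (Subgroup.mem_top n)
  have hmem2 : ∀ z ∈ Subgroup.lowerCentralSeries (⊤ : Subgroup P) 1, ∀ w : P,
      ⁅z, w⁆ ∈ Subgroup.lowerCentralSeries (⊤ : Subgroup P) 2 := by
    intro z hz w
    show ⁅z, w⁆ ∈ ⁅Subgroup.lowerCentralSeries (⊤ : Subgroup P) 1, ⊤⁆
    exact Subgroup.commutator_mem_commutator hz (Subgroup.mem_top w)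
  have hKn : (E ⊔ Subgroup.lowerCentralSeries (⊤ : Subgroup P) 1).Normal := by
    constructor
    intro n hn g
    have e : g * n * g⁻¹ = ⁅g, n⁆ * n := by rw [commutatorElement_def]; group
    rw [e]
    exact Subgroup.mul_mem _ (Subgroup.mem_sup_right (hmem1 g n)) hn
  have hNK : Subgroup.normalClosure (E : Set P) ≤
      E ⊔ Subgroup.lowerCentralSeries (⊤ : Subgroup P) 1 :=
    Subgroup.normalClosure_le_normal (fun x hx => Subgroup.mem_sup_left hx)
  have hEN : E ≤ Subgroup.normalizer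
      ((Subgroup.lowerCentralSeries (⊤ : Subgroup P) 1 : Subgroup P) : Set P) := by
    intro a _
    rw [Subgroup.mem_normalizer_iff]
    intro x
    constructor
    · intro hx; exact hP'n.conj_mem x hx a
    · intro hx
      have h1 := hP'n.conj_mem _ hx a⁻¹
      have e : a⁻¹ * (a * x * a⁻¹) * a⁻¹⁻¹ = x := by group
      rwa [e] at h1
  refine (Subgroup.commutator_mono hNK hNK).trans ?_
  rw [Subgroup.commutator_le]
  intro a ha b hb
  obtain ⟨e₁, he₁, z₁, hz₁, rfl⟩ := mem_sup_of_le_normalizer hEN ha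
  obtain ⟨e₂, he₂, z₂, hz₂, rfl⟩ := mem_sup_of_le_normalizer hEN hb
  have hcomm : ⁅e₁, e₂⁆ = 1 := by
    rw [commutatorElement_eq_one_iff_mul_comm]
    exact congrArg Subtype.val (hE.is_comm.comm (⟨e₁, he₁⟩ : E) ⟨e₂, he₂⟩)
  have e : ⁅e₁ * z₁, e₂ * z₂⁆ = (e₁ * ⁅z₁, e₂ * z₂⁆ * e₁⁻¹) *
      (⁅e₁, e₂⁆ * (e₂ * ⁅e₁, z₂⁆ * e₂⁻¹)) := by
    simp only [commutatorElement_def]; group
  rw [e, hcomm, one_mul]
  refine Subgroup.mul_mem _ (hΓn.conj_mem _ (hmem2 z₁ hz₁ _) e₁) (hΓn.conj_mem _ ?_ e₂)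
  rw [← commutatorElement_inv]
  exact Subgroup.inv_mem _ (hmem2 z₂ hz₂ e₁)

theorem nilpotencyClass_normalClosure_lt {P : Type*} [Group P] [Group.IsNilpotent P]
    (hna : ¬ IsMulCommutative P) {E : Subgroup P} (hE : IsMulCommutative ↥E) :
    Group.nilpotencyClass ↥(Subgroup.normalClosure (E : Set P)) < Group.nilpotencyClass P := by
  have key : ∀ i, Subgroup.lowerCentralSeries (Subgroup.normalClosure (E : Set P)) (i + 1) ≤
      Subgroup.lowerCentralSeries (⊤ : Subgroup P) (i + 2) := by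
    intro i
    induction i with
    | zero => exact commutator_normalClosure_le hE
    | succ i ih =>
      show ⁅Subgroup.lowerCentralSeries (Subgroup.normalClosure (E : Set P)) (i + 1),
        Subgroup.normalClosure (E : Set P)⁆ ≤
        ⁅Subgroup.lowerCentralSeries (⊤ : Subgroup P) (i + 2), ⊤⁆
      exact Subgroup.commutator_mono ih le_top
  have hc2 : 2 ≤ Group.nilpotencyClass P := by
    by_contra hlt
    have h1 : Group.nilpotencyClass P ≤ 1 := by omega
    exact hna (Group.IsNilpotent.nilpotencyClass_le_one_iff.1 h1)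
  obtain ⟨c, hc⟩ : ∃ c, Group.nilpotencyClass P = c + 2 :=
    ⟨Group.nilpotencyClass P - 2, by omega⟩
  have h4 : Subgroup.lowerCentralSeries (⊤ : Subgroup P) (c + 2) = ⊥ := by
    rw [← hc]; exact Subgroup.lowerCentralSeries_nilpotencyClass
  have h5 : Subgroup.lowerCentralSeries
      (⊤ : Subgroup ↥(Subgroup.normalClosure (E : Set P))) (c + 1) = ⊥ := by
    have h := key c
    rw [h4, le_bot_iff, ← Subgroup.top_subtype_lowerCentralSeries] at h
    exact (Subgroup.map_eq_bot_iff_of_injective _ (Subgroup.subtype_injective _)).1 h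
  have h6 : Group.nilpotencyClass ↥(Subgroup.normalClosure (E : Set P)) ≤ c + 1 :=
    Subgroup.lowerCentralSeries_eq_bot_iff_nilpotencyClass_le.1 h5
  omega

end Cfsg.Agent.Helper26
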