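import Cfsg.Agent.Helper16.PCore
import Cfsg.Prelude.Def_RootSubgroups

set_option autoImplicit false

namespace Cfsg.Agent.Helper26

open Cfsg

section OddTransp

variable {G : Type*} [Group G]

theorem oddTransp_comm_of_pow {D : Set G} (hD : IsOddTranspositionSet D) {x y : G}
    (hx : x ∈ D) (hy : y ∈ D) {k : ℕ} (hk : (x * y) ^ (2 ^ k) = 1) : x * y = y * x := by
  rcases hD.1.pair x hx y hy with h | h | h
  · exact h
  · have h3 : x * y = 1 := Helper16.eq_one_of_coprime_of_pow h.coprime_two_right hk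
    have h4 : y * x = 1 := mul_eq_one_comm.1 h3
    rw [h3, h4]
  · exact absurd h.1 (hD.2 x hx y hy)

theorem oddTransp_comm_of_mem_pCore {D : Set G} (hD : IsOddTranspositionSet D) {x y : G}
    (hx : x ∈ D) (hy : y ∈ D) (h : x * y ∈ pCore 2 G) : x * y = y * x := by
  obtain ⟨k, hk⟩ := Helper16.pCore_isPGroup 2 G ⟨x * y, h⟩
  have hk' : (x * y) ^ 2 ^ k = 1 := by
    have h0 := congrArg Subtype.val hk
    rw [Subgroup.coe_pow, Subgroup.coe_one] at h0
    exact h0
  exact oddTransp_comm_of_pow hD hx hy hk'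

theorem oddTransp_sq {D : Set G} (hD : IsOddTranspositionSet D) {x : G} (hx : x ∈ D) :
    x ^ 2 = 1 := by
  have h := pow_orderOf_eq_one x
  rw [hD.1.orderOf_eq x hx] at h
  exact h

theorem pow_odd_of_sq {t : G} (ht : t ^ 2 = 1) {n : ℕ} (hn : Odd n) : t ^ n = t := by
  obtain ⟨j, rfl⟩ := hn
  rw [pow_succ, pow_mul, ht, one_pow, one_mul]

theorem eq_one_of_odd_mul {t r : G} (ht : t ^ 2 = 1) (hc : Commute t r) (hr : Odd (orderOf r))
    (htr : Odd (orderOf (t * r))) : t = 1 := by
  have h1 : (t * r) ^ orderOf r = t := by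
    rw [hc.mul_pow, pow_orderOf_eq_one, mul_one, pow_odd_of_sq ht hr]
  have h3 : ((t * r) ^ orderOf r) ^ orderOf (t * r) = 1 := by
    rw [← pow_mul, mul_comm (orderOf r) (orderOf (t * r)), pow_mul, pow_orderOf_eq_one, one_pow]
  rw [h1, pow_odd_of_sq ht htr] at h3
  exact h3

theorem eq_one_of_sq_of_odd {r : G} (h2 : r ^ 2 = 1) (hr : Odd (orderOf r)) : r = 1 := by
  have h := pow_odd_of_sq h2 hr
  rw [pow_orderOf_eq_one] at h
  exact h.symm

theorem oddTransp_core {D : Set G} (hD : IsOddTranspositionSet D) {a : G}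
    (ha : a ∈ D) :
    (∀ e ∈ commutingMembers D a, ∀ q ∈ ⁅pCore 2 G, Subgroup.zpowers a⁆, e * q = q * e) ∧
    (∀ b ∈ oddPartners D a,
      pCore 2 G ⊓ Subgroup.centralizer {a * b} =
        pCore 2 G ⊓ Subgroup.centralizer {a} ⊓ Subgroup.centralizer {b}) := by
  have hn : (pCore 2 G).Normal := inferInstance
  have ha2 : a ^ 2 = 1 := oddTransp_sq hD ha
  have haa : a * a = 1 := by rw [← pow_two]; exact ha2
  have ha_inv : a⁻¹ = a := inv_eq_of_mul_eq_one_right haa
  constructor
  · rintro e ⟨he, hea⟩ q' hq'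
    have he2 : e ^ 2 = 1 := oddTransp_sq hD he
    have hcae : Commute a e := hea.symm
    have hae2 : (a * e) ^ 2 = 1 := by rw [hcae.mul_pow, ha2, he2, one_mul]
    have key : ∀ q ∈ pCore 2 G, Commute e (q * a * q⁻¹) := by
      intro q hq
      have he' : q⁻¹ * e * q ∈ D := by
        have h := hD.1.conj_mem e he q⁻¹
        rwa [inv_inv] at h
      have hq1 : (QuotientGroup.mk' (pCore 2 G)) q = 1 := (QuotientGroup.eq_one_iff q).2 hq
      have hmem : (a * (q⁻¹ * e * q)) ^ 2 ∈ pCore 2 G := by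
        apply (QuotientGroup.eq_one_iff _).1
        show (QuotientGroup.mk' (pCore 2 G)) ((a * (q⁻¹ * e * q)) ^ 2) = 1
        rw [map_pow, map_mul, map_mul, map_mul, map_inv, hq1, inv_one, one_mul, mul_one,
          ← map_mul, ← map_pow, hae2, map_one]
      obtain ⟨k, hk⟩ := Helper16.pCore_isPGroup 2 G ⟨_, hmem⟩
      have hk' : (a * (q⁻¹ * e * q)) ^ 2 ^ (k + 1) = 1 := by
        have h0 := congrArg Subtype.val hk
        rw [Subgroup.coe_pow, Subgroup.coe_one] at h0
        have e2 : 2 ^ (k + 1) = 2 * 2 ^ k := pow_succ' 2 k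
        rw [e2, pow_mul]
        exact h0
      have hcomm : a * (q⁻¹ * e * q) = (q⁻¹ * e * q) * a := oddTransp_comm_of_pow hD ha he' hk'
      have h1 : e * (q * a * q⁻¹) = q * ((q⁻¹ * e * q) * a) * q⁻¹ := by group
      have h2 : (q * a * q⁻¹) * e = q * (a * (q⁻¹ * e * q)) * q⁻¹ := by group
      show e * (q * a * q⁻¹) = (q * a * q⁻¹) * e
      rw [h1, h2, hcomm]
    have hle : ⁅pCore 2 G, Subgroup.zpowers a⁆ ≤ Subgroup.centralizer {e} := by
      rw [Subgroup.commutator_le]
      intro g₁ hg₁ g₂ hg₂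
      obtain ⟨n, rfl⟩ := Subgroup.mem_zpowers_iff.1 hg₂
      rw [Subgroup.mem_centralizer_iff]
      intro h hh
      rw [Set.mem_singleton_iff] at hh
      rw [hh]
      have hc1 : Commute e (g₁ * a ^ n * g₁⁻¹) := by
        rw [← conj_zpow]
        exact (key g₁ hg₁).zpow_right n
      have hc2 : Commute e (a ^ n)⁻¹ := (hcae.symm.zpow_right n).inv_right
      exact (hc1.mul_right hc2).eq
    exact Subgroup.mem_centralizer_iff.1 (hle hq') e (Set.mem_singleton e)
  · rintro b ⟨hb, hba, hodd⟩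
    have hb2 : b ^ 2 = 1 := oddTransp_sq hD hb
    have hbb : b * b = 1 := by rw [← pow_two]; exact hb2
    have hb_inv : b⁻¹ = b := inv_eq_of_mul_eq_one_right hbb
    ext q
    constructor
    · intro hmem
      obtain ⟨hq, hqr⟩ := Subgroup.mem_inf.1 hmem
      have hqr' : Commute q (a * b) :=
        (Subgroup.mem_centralizer_iff.1 hqr (a * b) (Set.mem_singleton _)).symm
      have ha' : q * a * q⁻¹ ∈ D := hD.1.conj_mem a ha q
      have ha'2 : (q * a * q⁻¹) ^ 2 = 1 := oddTransp_sq hD ha'
      have htQ : q * a * q⁻¹ * a ∈ pCore 2 G := by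
        have h : q * (a * q⁻¹ * a⁻¹) ∈ pCore 2 G :=
          (pCore 2 G).mul_mem hq (hn.conj_mem q⁻¹ ((pCore 2 G).inv_mem hq) a)
        rw [ha_inv] at h
        have e : q * a * q⁻¹ * a = q * (a * q⁻¹ * a) := by group
        rw [e]; exact h
      have hct : Commute (q * a * q⁻¹) a := oddTransp_comm_of_mem_pCore hD ha' ha htQ
      have ht2 : (q * a * q⁻¹ * a) ^ 2 = 1 := by rw [hct.mul_pow, ha'2, ha2, one_mul]
      have hsa : SemiconjBy a (a * b) (a * b)⁻¹ := by
        show a * (a * b) = (a * b)⁻¹ * a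
        rw [mul_inv_rev, inv_mul_cancel_right, ← mul_assoc, haa, one_mul, hb_inv]
      have hsq : SemiconjBy q (a * b)⁻¹ (a * b)⁻¹ := hqr'.inv_right
      have hsqi : SemiconjBy q⁻¹ (a * b) (a * b) := hqr'.inv_left
      have hsa' : SemiconjBy (q * a * q⁻¹) (a * b) (a * b)⁻¹ := (hsq.mul_left hsa).mul_left hsqi
      have hst : SemiconjBy (q * a * q⁻¹ * a) (a * b) (a * b)⁻¹⁻¹ := hsa'.inv_right.mul_left hsa
      rw [inv_inv] at hst
      have hctr : Commute (q * a * q⁻¹ * a) (a * b) := hst
      have hprod : q * a * q⁻¹ * b = (q * a * q⁻¹ * a) * (a * b) := by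
        rw [mul_assoc (q * a * q⁻¹) a (a * b), ← mul_assoc a a b, haa, one_mul]
      have ht1 : q * a * q⁻¹ * a = 1 := by
        rcases hD.1.pair _ ha' b hb with h | h | h
        · exfalso
          have h5 : ((q * a * q⁻¹) * b) ^ 2 = 1 := by
            rw [(show Commute (q * a * q⁻¹) b from h).mul_pow, ha'2, hb2, one_mul]
          rw [hprod, hctr.mul_pow, ht2, one_mul] at h5
          have h6 : a * b = 1 := eq_one_of_sq_of_odd h5 hodd
          have h7 : b = a := by
            have h8 := inv_eq_of_mul_eq_one_right h6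
            rw [ha_inv] at h8
            exact h8.symm
          exact hba h7
        · rw [hprod] at h
          exact eq_one_of_odd_mul ht2 hctr hodd h
        · exact absurd h.1 (hD.2 _ ha' b hb)
      have hqa : Commute q a := by
        have h8 : q * a * q⁻¹ = a := by
          have h9 := eq_inv_of_mul_eq_one_left ht1
          rw [ha_inv] at h9
          exact h9
        show q * a = a * q
        calc q * a = q * a * q⁻¹ * q := by group
          _ = a * q := by rw [h8]
      have hqb : Commute q b := by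
        have h10 : Commute q (a⁻¹ * (a * b)) := hqa.inv_right.mul_right hqr'
        rwa [inv_mul_cancel_left] at h10
      refine Subgroup.mem_inf.2 ⟨Subgroup.mem_inf.2 ⟨hq, ?_⟩, ?_⟩
      · rw [Subgroup.mem_centralizer_iff]
        intro h hh
        rw [Set.mem_singleton_iff] at hh
        rw [hh]
        exact hqa.eq.symm
      · rw [Subgroup.mem_centralizer_iff]
        intro h hh
        rw [Set.mem_singleton_iff] at hh
        rw [hh]
        exact hqb.eq.symm
    · intro hmem
      obtain ⟨h12, hqb⟩ := Subgroup.mem_inf.1 hmem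
      obtain ⟨hq, hqa⟩ := Subgroup.mem_inf.1 h12
      refine Subgroup.mem_inf.2 ⟨hq, ?_⟩
      rw [Subgroup.mem_centralizer_iff]
      intro h hh
      rw [Set.mem_singleton_iff] at hh
      rw [hh]
      have hca : Commute q a :=
        (Subgroup.mem_centralizer_iff.1 hqa a (Set.mem_singleton _)).symm
      have hcb : Commute q b :=
        (Subgroup.mem_centralizer_iff.1 hqb b (Set.mem_singleton _)).symm
      exact (hca.mul_right hcb).eq.symm

end OddTransp

end Cfsg.Agent.Helper26
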