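import Cfsg.Agent.Helper26.TwSys
import Cfsg.Agent.Helper26.FusionEss
import Cfsg.Agent.Helper26.FusionSat2

set_option autoImplicit false

namespace Cfsg.Agent.Helper26

open Cfsg Cfsg.FusionSystem

variable {Ω : Type*} [Group Ω] {S : Subgroup Ω}

theorem centric_of_isConj (F : FusionSystem S) {P Q : Subgroup Ω} (hP : F.IsCentric P)
    (h : F.IsConj P Q) : F.IsCentric Q :=
  ⟨isConj_le_right F h, fun R hR => hP.2 R (isConj_trans F h hR)⟩

/-- The subgroup generated by the elements of `p`-power order is closed under conjugation. -/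
theorem conj_mem_closure_pPower {A : Type*} [Group A] (p : ℕ) (k : A) {c : A}
    (hc : c ∈ Subgroup.closure {a : A | ∃ j : ℕ, orderOf a = p ^ j}) :
    k * c * k⁻¹ ∈ Subgroup.closure {a : A | ∃ j : ℕ, orderOf a = p ^ j} := by
  induction hc using Subgroup.closure_induction with
  | mem x hx =>
    obtain ⟨j, hj⟩ := hx
    apply Subgroup.subset_closure
    refine ⟨j, ?_⟩
    rw [← hj]
    exact (MulAut.conj k).orderOf_eq x
  | one =>
    have e : k * 1 * k⁻¹ = (1 : A) := by group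
    rw [e]; exact Subgroup.one_mem _
  | mul x y _ _ hx hy =>
    have e : k * (x * y) * k⁻¹ = (k * x * k⁻¹) * (k * y * k⁻¹) := by group
    rw [e]; exact Subgroup.mul_mem _ hx hy
  | inv x _ hx =>
    have e : k * x⁻¹ * k⁻¹ = (k * x * k⁻¹)⁻¹ := by group
    rw [e]; exact Subgroup.inv_mem _ hx

theorem primeIndex_hC [Finite S] (p : ℕ) [Fact p.Prime] (hS : IsPGroup p S)
    (F : FusionSystem S) (hF : F.IsSaturated p) (E : FusionSystem S)
    (h : ∀ P : Subgroup Ω, F.IsCentric P →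
      (Subgroup.closure {α : ↥(F.autGroup P) | ∃ k : ℕ, orderOf α = p ^ k}).map
        (F.autGroup P).subtype ≤ E.autGroup P)
    (P : Subgroup Ω) (hPn : F.IsFullyNormalized P) (hSP : ¬ S ≤ P) :
    ∃ (C : Subgroup (MulAut P)) (g : Ω) (hgN : g ∈ Subgroup.normalizer (P : Set Ω)),
      C ≤ F.autGroup P ∧ (∀ k ∈ F.autGroup P, ∀ c ∈ C, k * c * k⁻¹ ∈ C) ∧ g ∈ S ∧ g ∉ P ∧
      P.normalizerMonoidHom ⟨g, hgN⟩ ∈ C ∧
      ∀ c ∈ C, ∀ β ∈ F.autGroup S, TwIn E β β (P.subtype.comp c.toMonoidHom) := by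
  have hPS : P ≤ S := hPn.1
  have hPfin : Finite P := finite_of_le hPS
  by_cases hc : F.IsCentric P
  · have hne : P ≠ S := fun h => hSP h.ge
    obtain ⟨g, hgS, hgP, hgN⟩ := exists_normalizing_not_mem hS hPS hne
    obtain ⟨C, hCdef⟩ : ∃ C : Subgroup (MulAut P), C =
        (Subgroup.closure {α : ↥(F.autGroup P) | ∃ k : ℕ, orderOf α = p ^ k}).map
          (F.autGroup P).subtype := ⟨_, rfl⟩
    have hCA : C ≤ F.autGroup P := by rw [hCdef]; exact Subgroup.map_subtype_le _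
    have hCn : ∀ k ∈ F.autGroup P, ∀ c ∈ C, k * c * k⁻¹ ∈ C := by
      intro k hk c hcC
      rw [hCdef] at hcC ⊢
      obtain ⟨c₀, hc₀, rfl⟩ := hcC
      exact ⟨(⟨k, hk⟩ : ↥(F.autGroup P)) * c₀ * (⟨k, hk⟩ : ↥(F.autGroup P))⁻¹,
        conj_mem_closure_pPower p _ hc₀, rfl⟩
    have hcgA : P.normalizerMonoidHom ⟨g, hgN⟩ ∈ F.autGroup P :=
      autInducedBy_le_autGroup F hPS (mem_autInducedBy_iff.2 ⟨g, hgS, fun x => rfl⟩)
    have hcgC : P.normalizerMonoidHom ⟨g, hgN⟩ ∈ C := by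
      obtain ⟨k, hk⟩ := hS ⟨g, hgS⟩
      have hk' : g ^ p ^ k = 1 := congrArg (fun z : S => (z : Ω)) hk
      have e1 : (⟨g, hgN⟩ : Subgroup.normalizer (P : Set Ω)) ^ p ^ k = 1 := by
        apply Subtype.ext
        show g ^ p ^ k = 1
        exact hk'
      have e2 : (P.normalizerMonoidHom ⟨g, hgN⟩) ^ p ^ k = 1 := by
        rw [← map_pow, e1, map_one]
      have e3 : (⟨P.normalizerMonoidHom ⟨g, hgN⟩, hcgA⟩ : ↥(F.autGroup P)) ^ p ^ k = 1 := by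
        apply Subtype.ext
        show (P.normalizerMonoidHom ⟨g, hgN⟩) ^ p ^ k = 1
        exact e2
      obtain ⟨j, -, hj⟩ := (Nat.dvd_prime_pow (Fact.out : p.Prime)).1
        (orderOf_dvd_of_pow_eq_one e3)
      rw [hCdef]
      exact ⟨⟨P.normalizerMonoidHom ⟨g, hgN⟩, hcgA⟩, Subgroup.subset_closure ⟨j, hj⟩, rfl⟩
    refine ⟨C, g, hgN, hCA, hCn, hgS, hgP, hcgC, fun c hcC β hβ => ?_⟩
    have hβF : S.subtype.comp β.toMonoidHom ∈ F.Hom S := (mem_autGroup_iff F le_rfl).1 hβ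
    obtain ⟨eβ, heβ⟩ := exists_restrict_iso' (S.subtype.comp β.toMonoidHom)
      (F.injective_of_mem hβF) hPS
      (rfl : (P.subgroupOf S).map (S.subtype.comp β.toMonoidHom) = Helper27.imAut β P)
    have heβF : (Helper27.imAut β P).subtype.comp eβ.toMonoidHom ∈ F.Hom P :=
      restrict_mem F hβF hPS heβ
    have hcen' : F.IsCentric (Helper27.imAut β P) :=
      centric_of_isConj F hc (isConj_of_iso F eβ heβF)
    have hCD : C ≤ (E.autGroup (Helper27.imAut β P)).comap (MulAut.congr eβ).toMonoidHom := by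
      rw [hCdef, Subgroup.map_le_iff_le_comap, Subgroup.closure_le]
      rintro a ⟨k, hk⟩
      have ha' : MulAut.congr eβ (a : MulAut P) ∈ F.autGroup (Helper27.imAut β P) :=
        congr_mem_autGroup F eβ heβF a.2
      have e1 : orderOf (⟨MulAut.congr eβ (a : MulAut P), ha'⟩ :
          ↥(F.autGroup (Helper27.imAut β P))) = orderOf (MulAut.congr eβ (a : MulAut P)) :=
        (Subgroup.orderOf_coe _).symm
      have e2 : orderOf (MulAut.congr eβ (a : MulAut P)) = orderOf (a : MulAut P) :=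
        (MulAut.congr eβ).orderOf_eq _
      have e3 : orderOf (a : MulAut P) = orderOf a := Subgroup.orderOf_coe a
      exact h _ hcen' ⟨⟨MulAut.congr eβ (a : MulAut P), ha'⟩,
        Subgroup.subset_closure ⟨k, (e1.trans (e2.trans e3)).trans hk⟩, rfl⟩
    have hcD : MulAut.congr eβ c ∈ E.autGroup (Helper27.imAut β P) := hCD hcC
    have hχ₀ := (mem_autGroup_iff E (Helper27.imAut_le β P)).1 hcD
    have hle : Helper27.imAut β (P ⊓ S) ≤ Helper27.imAut β P := by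
      intro z hz
      obtain ⟨x, hx, rfl⟩ := exists_of_mem_imAut_inf β hz
      exact Helper27.mem_imAut.2 ⟨⟨x, hx⟩, x.2, rfl⟩
    refine ⟨((Helper27.imAut β P).subtype.comp (MulAut.congr eβ c).toMonoidHom).comp
      (Subgroup.inclusion hle), restrict_mem E hχ₀ hle (fun _ => rfl), fun x hx hφ hm => ?_⟩
    have e1 : (⟨((β ⟨x, hx⟩ : S) : Ω), hle hm⟩ : ↥(Helper27.imAut β P)) = eβ x :=
      Subtype.ext (heβ x).symm
    show ((eβ (c (eβ.symm ⟨((β ⟨x, hx⟩ : S) : Ω), hle hm⟩)) : ↥(Helper27.imAut β P)) : Ω) = _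
    rw [e1, MulEquiv.symm_apply_apply]
    exact heβ (c x)
  · have hfc : F.IsFullyCentralized P := (sat_fullyNormalized p hS F hF hPn).1
    have hnot : ¬ centralizerIn S P ≤ P :=
      fun hle => hc (centric_of_fullyCentralized F hfc hle)
    obtain ⟨g, hgC, hgP⟩ := SetLike.not_le_iff_exists.1 hnot
    obtain ⟨hgS, hgc⟩ := mem_centralizerIn.1 hgC
    have hgN : g ∈ Subgroup.normalizer (P : Set Ω) :=
      normalizerIn_le_normalizer S P (centralizerIn_le_normalizerIn S P hgC)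
    have hcg1 : P.normalizerMonoidHom ⟨g, hgN⟩ = 1 := by
      apply MulEquiv.ext
      intro x
      apply Subtype.ext
      show g * (x : Ω) * g⁻¹ = x
      rw [← hgc x x.2, mul_inv_cancel_right]
    refine ⟨⊥, g, hgN, bot_le, ?_, hgS, hgP, ?_, ?_⟩
    · intro k _ c hcb
      rw [Subgroup.mem_bot] at hcb ⊢
      rw [hcb]; group
    · rw [Subgroup.mem_bot]; exact hcg1
    · intro c hcb β hβ
      rw [Subgroup.mem_bot] at hcb
      rw [hcb]
      have h1 := (tw_of_agree E β 1 (P.subtype.comp (1 : MulAut P).toMonoidHom)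
        (fun x hx => rfl)).2
      rwa [mul_one] at h1

/-- Given the Frattini property `F = Aut_F(S) ∘ E`, every `p`-element of `Aut_F(P)` lies in
`Aut_E(P)`. -/
theorem pElement_mem_of_frattini [Finite S] (p : ℕ) [Fact p.Prime] (hS : IsPGroup p S)
    (F : FusionSystem S) (hF : F.IsSaturated p) (E : FusionSystem S)
    (hfr : ∀ (P : Subgroup Ω) (φ : P →* Ω), φ ∈ F.Hom P → ∃ α ∈ F.autGroup S,
      ∃ φ₀ ∈ E.Hom P, ∀ (x : P) (hx : φ₀ x ∈ S), φ x = ((α ⟨φ₀ x, hx⟩ : S) : Ω))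
    {P : Subgroup Ω} (hPS : P ≤ S) {a : MulAut P} (ha : a ∈ F.autGroup P) {k : ℕ}
    (hak : a ^ p ^ k = 1) : a ∈ E.autGroup P := by
  have hPfin : Finite P := finite_of_le hPS
  obtain ⟨P', hPP', hP'n⟩ := exists_fullyNormalized_conj F hPS
  obtain ⟨e, he⟩ := exists_iso_of_isConj F hPP'
  have hP'S : P' ≤ S := hP'n.1
  have hP'fin : Finite P' := finite_of_le hP'S
  have hfa := (sat_fullyNormalized p hS F hF hP'n).2
  have ha'F : MulAut.congr e a ∈ F.autGroup P' := congr_mem_autGroup F e he ha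
  have ha'k : (MulAut.congr e a) ^ p ^ k = 1 := by rw [← map_pow, hak, map_one]
  have hzp : IsPGroup p (Subgroup.zpowers (MulAut.congr e a)) := isPGroup_zpowers ha'k
  have hzle : Subgroup.zpowers (MulAut.congr e a) ≤ F.autGroup P' := by
    rw [Subgroup.zpowers_le]; exact ha'F
  obtain ⟨n, hn, hnH⟩ := exists_conj_le_of_sylowIn hfa.2 hzp hzle
  have h1 : n * (MulAut.congr e a) * n⁻¹ ∈ autInducedBy S P' :=
    hnH ⟨MulAut.congr e a, Subgroup.mem_zpowers _, rfl⟩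
  obtain ⟨g, hgS, hg⟩ := mem_autInducedBy_iff.1 h1
  have hθF : P'.subtype.comp (e.trans n).toMonoidHom ∈ F.Hom P :=
    iso_trans_mem F e n he ((mem_autGroup_iff F hP'S).1 hn)
  have hθa : ∀ x : P, ((n (e (a x)) : P') : Ω) = g * ((n (e x) : P') : Ω) * g⁻¹ := by
    intro x
    have h2 := hg (n (e x))
    rw [← h2]
    show ((n (e (a x)) : P') : Ω) = ((n (e (a (e.symm (n⁻¹ (n (e x)))))) : P') : Ω)
    rw [MulAut.inv_apply_self, MulEquiv.symm_apply_apply]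
  obtain ⟨α, hα, φ₀, hφ₀, hrel⟩ := hfr P _ hθF
  have hφ₀S : ∀ x : P, φ₀ x ∈ S := (E.le_of_mem hφ₀).2
  have hrel' : ∀ x : P, ((n (e x) : P') : Ω) = ((α ⟨φ₀ x, hφ₀S x⟩ : S) : Ω) :=
    fun x => hrel x (hφ₀S x)
  obtain ⟨g', hg'def⟩ : ∃ g' : S, g' = α⁻¹ ⟨g, hgS⟩ := ⟨_, rfl⟩
  have hαg' : α g' = ⟨g, hgS⟩ := by rw [hg'def, MulAut.apply_inv_self]
  have key : ∀ x : P, φ₀ (a x) = (g' : Ω) * φ₀ x * (g' : Ω)⁻¹ := by
    intro x
    have h3 : α ⟨φ₀ (a x), hφ₀S (a x)⟩ = α (g' * ⟨φ₀ x, hφ₀S x⟩ * g'⁻¹) := by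
      apply Subtype.ext
      rw [← hrel' (a x), hθa x, map_mul, map_mul, map_inv, hαg']
      show g * ((n (e x) : P') : Ω) * g⁻¹ = g * ((α ⟨φ₀ x, hφ₀S x⟩ : S) : Ω) * g⁻¹
      rw [hrel' x]
    exact congrArg (fun z : S => (z : Ω)) (α.injective h3)
  obtain ⟨ψ₀, hψ₀, hψ₀inv⟩ := E.inv_mem hφ₀
  have hrS : φ₀.range ≤ S := by
    rintro _ ⟨x, rfl⟩; exact hφ₀S x
  have hconj : conjHom φ₀.range (g' : Ω) ∈ E.Hom φ₀.range := E.conj_mem hrS g'.2
  have hχ₁ : (conjHom φ₀.range (g' : Ω)).comp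
      (φ₀.codRestrict φ₀.range (fun x => ⟨x, rfl⟩)) ∈ E.Hom P := E.comp_mem hφ₀ hconj _
  rw [mem_autGroup_iff E hPS]
  refine comp_mem' E hχ₁ hψ₀ (fun x => ⟨⟨a x, key x⟩, ?_⟩)
  have e5 : (⟨((conjHom φ₀.range (g' : Ω)).comp
      (φ₀.codRestrict φ₀.range (fun x => ⟨x, rfl⟩))) x, ⟨a x, key x⟩⟩ : φ₀.range) =
      ⟨φ₀ (a x), ⟨a x, rfl⟩⟩ := Subtype.ext (key x).symm
  have h6 : ψ₀ ⟨((conjHom φ₀.range (g' : Ω)).comp
      (φ₀.codRestrict φ₀.range (fun x => ⟨x, rfl⟩))) x, ⟨a x, key x⟩⟩ = ((a x : P) : Ω) := by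
    rw [e5]; exact hψ₀inv (a x)
  exact h6.symm

/-- Index prime to `p`: from centric subgroups to all subgroups, with the Frattini property and
the equality of centric subgroups. -/
theorem primeToP_of_centric [Finite S] (p : ℕ) [Fact p.Prime] (hS : IsPGroup p S)
    (F : FusionSystem S) (hF : F.IsSaturated p) (E : FusionSystem S)
    (hEF : E.IsSubsystemOf F)
    (h : ∀ P : Subgroup Ω, F.IsCentric P →
      (Subgroup.closure {α : ↥(F.autGroup P) | ∃ k : ℕ, orderOf α = p ^ k}).map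
        (F.autGroup P).subtype ≤ E.autGroup P) :
    E.HasPrimeToPIndexIn F p ∧
    (∀ (P : Subgroup Ω) (φ : P →* Ω), φ ∈ F.Hom P → ∃ α ∈ F.autGroup S, ∃ φ₀ ∈ E.Hom P,
      ∀ (x : P) (hx : φ₀ x ∈ S), φ x = ((α ⟨φ₀ x, hx⟩ : S) : Ω)) ∧
    ∀ P : Subgroup Ω, E.IsCentric P ↔ F.IsCentric P := by
  have hT : F.StronglyClosed S := ⟨le_rfl, fun R _ φ hφ x => (F.le_of_mem hφ).2 x⟩
  have hle : F ≤ twSys F E hT :=
    le_twSys p hS F hF E hT (fun P hPn hSP => primeIndex_hC p hS F hF E h P hPn hSP)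
  have hfr : ∀ (P : Subgroup Ω) (φ : P →* Ω), φ ∈ F.Hom P → ∃ α ∈ F.autGroup S,
      ∃ φ₀ ∈ E.Hom P, ∀ (x : P) (hx : φ₀ x ∈ S), φ x = ((α ⟨φ₀ x, hx⟩ : S) : Ω) :=
    fun P φ hφ => twSys_frattini F E hT hle (F.le_of_mem hφ).1 hφ
  refine ⟨⟨hEF, fun P hPS => ?_⟩, hfr, fun P => ⟨fun hc => ?_, fun hc => ?_⟩⟩
  · rw [Subgroup.map_le_iff_le_comap, Subgroup.closure_le]
    rintro a ⟨k, hk⟩
    have h1 : a ^ p ^ k = 1 := by rw [← hk]; exact pow_orderOf_eq_one a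
    have hak : (a : MulAut P) ^ p ^ k = 1 :=
      congrArg (fun z : ↥(F.autGroup P) => (z : MulAut P)) h1
    exact pElement_mem_of_frattini p hS F hF E hfr hPS a.2 hak
  · refine ⟨hc.1, fun Q hQ => ?_⟩
    obtain ⟨φ, hφ, rfl⟩ := hQ
    obtain ⟨α, hα, φ₀, hφ₀, hrel⟩ := hfr P φ hφ
    have hφ₀S : ∀ x : P, φ₀ x ∈ S := (E.le_of_mem hφ₀).2
    have hcen := hc.2 φ₀.range ⟨φ₀, hφ₀, rfl⟩
    intro g hg
    obtain ⟨hgS, hgc⟩ := mem_centralizerIn.1 hg
    obtain ⟨g', hg'def⟩ : ∃ g' : S, g' = α⁻¹ ⟨g, hgS⟩ := ⟨_, rfl⟩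
    have hαg' : α g' = ⟨g, hgS⟩ := by rw [hg'def, MulAut.apply_inv_self]
    have hg'C : (g' : Ω) ∈ centralizerIn S φ₀.range := by
      rw [mem_centralizerIn]
      refine ⟨g'.2, ?_⟩
      rintro _ ⟨x, rfl⟩
      have h1 := hgc (φ x) ⟨x, rfl⟩
      rw [hrel x (hφ₀S x)] at h1
      have h2 : α (⟨φ₀ x, hφ₀S x⟩ * g') = α (g' * ⟨φ₀ x, hφ₀S x⟩) := by
        rw [map_mul, map_mul, hαg']
        exact Subtype.ext h1
      exact congrArg (fun z : S => (z : Ω)) (α.injective h2)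
    obtain ⟨x₀, hx₀⟩ := hcen hg'C
    refine ⟨x₀, ?_⟩
    rw [hrel x₀ (hφ₀S x₀)]
    have e : (⟨φ₀ x₀, hφ₀S x₀⟩ : S) = g' := Subtype.ext hx₀
    rw [e, hαg']
  · exact ⟨hc.1, fun Q hQ => hc.2 Q (by
      obtain ⟨φ, hφ, hr⟩ := hQ
      exact ⟨φ, hEF P hφ, hr⟩)⟩

end Cfsg.Agent.Helper26
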