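import Mathlib
import Cfsg.Prelude.Def_RootSubgroups

set_option autoImplicit false

namespace Cfsg.Agent.Helper26

open Cfsg

section QuadPair

theorem one_add_mul_one_add {A : Type*} [Ring A] (N N' : A) (h : N * N' = 0) :
    (1 + N) * (1 + N') = 1 + (N + N') := by
  rw [mul_add, mul_one, add_mul, one_mul, h, add_zero, add_assoc]

theorem exists_unit_one_add {A : Type*} [Ring A] (N : A) (h : N * N = 0) :
    ∃ u : Aˣ, (u : A) = 1 + N := by
  refine ⟨⟨1 + N, 1 - N, ?_, ?_⟩, rfl⟩
  · rw [mul_sub, mul_one, add_mul, one_mul, h, add_zero, add_sub_cancel_right]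
  · rw [sub_mul, one_mul, mul_add, mul_one, h, add_zero, add_sub_cancel_right]

variable {k : Type*} [Field k] {M : Type*} [AddCommGroup M] [Module k M]

theorem range_ker_add [FiniteDimensional k M] {N N' : M →ₗ[k] M} {R K : Submodule k M}
    (hr : LinearMap.range N = R) (hr' : LinearMap.range N' = R)
    (hk : LinearMap.ker N = K) (hk' : LinearMap.ker N' = K)
    (hd : Module.finrank k (LinearMap.range N) ≤ Module.finrank k (LinearMap.range (N + N'))) :
    LinearMap.range (N + N') = R ∧ LinearMap.ker (N + N') = K := by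
  have hle : LinearMap.range (N + N') ≤ R := by
    rintro _ ⟨x, rfl⟩
    have h1 : N x ∈ R := by rw [← hr]; exact LinearMap.mem_range_self N x
    have h2 : N' x ∈ R := by rw [← hr']; exact LinearMap.mem_range_self N' x
    exact R.add_mem h1 h2
  have hR : LinearMap.range (N + N') = R :=
    Submodule.eq_of_le_of_finrank_le hle (by rw [← hr]; exact hd)
  refine ⟨hR, ?_⟩
  have hKle : K ≤ LinearMap.ker (N + N') := by
    intro x hx
    have h1 : N x = 0 := by rw [← hk] at hx; exact LinearMap.mem_ker.1 hx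
    have h2 : N' x = 0 := by rw [← hk'] at hx; exact LinearMap.mem_ker.1 hx
    rw [LinearMap.mem_ker, LinearMap.add_apply, h1, h2, add_zero]
  have e1 := LinearMap.finrank_range_add_finrank_ker (N + N')
  have e2 := LinearMap.finrank_range_add_finrank_ker N
  rw [hR] at e1
  rw [hr, hk] at e2
  have e3 : Module.finrank k (LinearMap.ker (N + N')) = Module.finrank k K := by omega
  exact (Submodule.eq_of_le_of_finrank_le hKle (le_of_eq e3)).symm

theorem sameAction_mul [FiniteDimensional k M] {G : Subgroup (LinearMap.GeneralLinearGroup k M)}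
    {σ τ τ' : LinearMap.GeneralLinearGroup k M}
    (hτ : τ ∈ sameActionClass G σ) (hτ' : τ' ∈ sameActionClass G σ) :
    τ * τ' = τ' * τ ∧ (τ * τ' ∈ sameActionClass G σ ∨ τ * τ' = 1) := by
  obtain ⟨⟨⟨hτG, ⟨hNN, hN0⟩, hτsf⟩, hτmin⟩, hτker, hτrange⟩ := hτ
  obtain ⟨⟨⟨hτ'G, ⟨hNN', hN0'⟩, hτ'sf⟩, hτ'min⟩, hτ'ker, hτ'range⟩ := hτ'
  obtain ⟨N, hN⟩ : ∃ N : M →ₗ[k] M, (τ : M →ₗ[k] M) = 1 + N :=
    ⟨_, (add_sub_cancel _ _).symm⟩
  obtain ⟨N', hN'⟩ : ∃ N' : M →ₗ[k] M, (τ' : M →ₗ[k] M) = 1 + N' :=
    ⟨_, (add_sub_cancel _ _).symm⟩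
  have hsubN : (τ : M →ₗ[k] M) - 1 = N := by rw [hN, add_sub_cancel_left]
  have hsubN' : (τ' : M →ₗ[k] M) - 1 = N' := by rw [hN', add_sub_cancel_left]
  rw [hsubN] at hNN hN0 hτker hτrange
  rw [hsubN'] at hNN' hN0' hτ'ker hτ'range
  have hRK : LinearMap.range ((σ : M →ₗ[k] M) - 1) ≤ LinearMap.ker ((σ : M →ₗ[k] M) - 1) := by
    rw [← hτrange, ← hτker]
    exact LinearMap.range_le_ker_iff.2 hNN
  have h12 : N * N' = 0 := by
    have h : N.comp N' = 0 :=
      LinearMap.range_le_ker_iff.1 (by rw [hτ'range, hτker]; exact hRK)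
    exact h
  have h21 : N' * N = 0 := by
    have h : N'.comp N = 0 :=
      LinearMap.range_le_ker_iff.1 (by rw [hτrange, hτ'ker]; exact hRK)
    exact h
  have hprod : ((τ * τ' : LinearMap.GeneralLinearGroup k M) : M →ₗ[k] M) = 1 + (N + N') := by
    rw [Units.val_mul, hN, hN']
    exact one_add_mul_one_add _ _ h12
  have hprod' : ((τ' * τ : LinearMap.GeneralLinearGroup k M) : M →ₗ[k] M) = 1 + (N + N') := by
    rw [Units.val_mul, hN, hN', one_add_mul_one_add _ _ h21, add_comm N' N]
  refine ⟨Units.ext (hprod.trans hprod'.symm), ?_⟩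
  by_cases h0 : N + N' = 0
  · right
    apply Units.ext
    rw [hprod, h0, add_zero, Units.val_one]
  · left
    have hsub : ((τ * τ' : LinearMap.GeneralLinearGroup k M) : M →ₗ[k] M) - 1 = N + N' := by
      rw [hprod, add_sub_cancel_left]
    have hquad : τ * τ' ∈ quadraticElements G := by
      refine ⟨G.mul_mem hτG hτ'G, ⟨?_, ?_⟩, ?_⟩
      · rw [hsub, add_mul, mul_add, mul_add, hNN, hNN', h12, h21, add_zero, add_zero]
      · rw [hsub]; exact h0
      · rintro ρ ⟨c, hc⟩
        rw [hsub] at hc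
        obtain ⟨u₁, hu₁⟩ := exists_unit_one_add (c • N)
          (by rw [smul_mul_smul_comm, hNN, smul_zero])
        obtain ⟨u₂, hu₂⟩ := exists_unit_one_add (c • N')
          (by rw [smul_mul_smul_comm, hNN', smul_zero])
        have h1 : u₁ ∈ G := hτsf ⟨c, by rw [hu₁, hsubN]⟩
        have h2 : u₂ ∈ G := hτ'sf ⟨c, by rw [hu₂, hsubN']⟩
        have e : ρ = u₁ * u₂ := by
          apply Units.ext
          rw [Units.val_mul, hu₁, hu₂, hc,
            one_add_mul_one_add _ _ (by rw [smul_mul_smul_comm, h12, smul_zero]), smul_add]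
        rw [e]
        exact G.mul_mem h1 h2
    have hmin : ∀ ρ ∈ quadraticElements G, commutatorRank (τ * τ') ≤ commutatorRank ρ := by
      intro ρ hρ
      have h1 : commutatorRank (τ * τ') ≤ commutatorRank τ := by
        show Module.finrank k (LinearMap.range
            (((τ * τ' : LinearMap.GeneralLinearGroup k M) : M →ₗ[k] M) - 1)) ≤
          Module.finrank k (LinearMap.range ((τ : M →ₗ[k] M) - 1))
        rw [hsub, hsubN]
        apply Submodule.finrank_mono
        rintro _ ⟨x, rfl⟩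
        have a1 : N x ∈ LinearMap.range N := LinearMap.mem_range_self _ x
        have a2 : N' x ∈ LinearMap.range N := by
          rw [hτrange, ← hτ'range]; exact LinearMap.mem_range_self _ x
        exact Submodule.add_mem _ a1 a2
      exact h1.trans (hτmin ρ hρ)
    have hd : Module.finrank k (LinearMap.range N) ≤
        Module.finrank k (LinearMap.range (N + N')) := by
      have h := hτmin (τ * τ') hquad
      have h' : Module.finrank k (LinearMap.range ((τ : M →ₗ[k] M) - 1)) ≤
          Module.finrank k (LinearMap.range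
            (((τ * τ' : LinearMap.GeneralLinearGroup k M) : M →ₗ[k] M) - 1)) := h
      rw [hsub, hsubN] at h'
      exact h'
    obtain ⟨hR, hK⟩ := range_ker_add hτrange hτ'range hτker hτ'ker hd
    exact ⟨⟨hquad, hmin⟩, by rw [hsub]; exact hK, by rw [hsub]; exact hR⟩

theorem sameAction_inv {G : Subgroup (LinearMap.GeneralLinearGroup k M)}
    {σ τ : LinearMap.GeneralLinearGroup k M} (hτ : τ ∈ sameActionClass G σ) :
    τ⁻¹ ∈ sameActionClass G σ := by
  obtain ⟨⟨⟨hτG, ⟨hNN, hN0⟩, hτsf⟩, hτmin⟩, hτker, hτrange⟩ := hτ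
  obtain ⟨N, hN⟩ : ∃ N : M →ₗ[k] M, (τ : M →ₗ[k] M) = 1 + N :=
    ⟨_, (add_sub_cancel _ _).symm⟩
  have hsubN : (τ : M →ₗ[k] M) - 1 = N := by rw [hN, add_sub_cancel_left]
  rw [hsubN] at hNN hN0 hτker hτrange
  have hinv : ((τ⁻¹ : LinearMap.GeneralLinearGroup k M) : M →ₗ[k] M) = 1 - N := by
    apply Units.inv_eq_of_mul_eq_one_right
    rw [hN, mul_sub, mul_one, add_mul, one_mul, hNN, add_zero, add_sub_cancel_right]
  have hsub : ((τ⁻¹ : LinearMap.GeneralLinearGroup k M) : M →ₗ[k] M) - 1 = -N := by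
    rw [hinv, sub_sub_cancel_left]
  have hquad : τ⁻¹ ∈ quadraticElements G := by
    refine ⟨G.inv_mem hτG, ⟨?_, ?_⟩, ?_⟩
    · rw [hsub, neg_mul_neg, hNN]
    · rw [hsub]; exact neg_ne_zero.2 hN0
    · rintro ρ ⟨c, hc⟩
      rw [hsub] at hc
      apply hτsf
      exact ⟨-c, by rw [hc, hsubN, smul_neg, neg_smul]⟩
  have hrank : commutatorRank τ⁻¹ = commutatorRank τ := by
    show Module.finrank k (LinearMap.range
        (((τ⁻¹ : LinearMap.GeneralLinearGroup k M) : M →ₗ[k] M) - 1)) =
      Module.finrank k (LinearMap.range ((τ : M →ₗ[k] M) - 1))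
    rw [hsub, hsubN, LinearMap.range_neg]
  refine ⟨⟨hquad, fun ρ hρ => ?_⟩, ?_, ?_⟩
  · rw [hrank]; exact hτmin ρ hρ
  · rw [hsub, LinearMap.ker_neg]; exact hτker
  · rw [hsub, LinearMap.range_neg]; exact hτrange

theorem sameAction_pow {G : Subgroup (LinearMap.GeneralLinearGroup k M)}
    {σ x : LinearMap.GeneralLinearGroup k M} (hx : x ∈ sameActionClass G σ) {p : ℕ}
    (hchar : ringChar k = p) : x ^ p = 1 := by
  obtain ⟨⟨⟨-, ⟨hNN, -⟩, -⟩, -⟩, -, -⟩ := hx
  obtain ⟨N, hN⟩ : ∃ N : M →ₗ[k] M, (x : M →ₗ[k] M) = 1 + N :=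
    ⟨_, (add_sub_cancel _ _).symm⟩
  have hsubN : (x : M →ₗ[k] M) - 1 = N := by rw [hN, add_sub_cancel_left]
  rw [hsubN] at hNN
  have hpow : ∀ n : ℕ, (1 + N) ^ n = 1 + (n : k) • N := by
    intro n
    induction n with
    | zero => simp
    | succ n ih =>
      rw [pow_succ, ih, one_add_mul_one_add _ _ (by rw [smul_mul_assoc, hNN, smul_zero])]
      rw [Nat.cast_add, Nat.cast_one, add_smul, one_smul]
  have hp0 : (p : k) = 0 := by rw [← hchar]; exact ringChar.Nat.cast_ringChar
  apply Units.ext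
  rw [Units.val_pow_eq_pow_val, hN, hpow, Units.val_one, hp0, zero_smul, add_zero]

theorem quadPair_sameAction [FiniteDimensional k M]
    {G : Subgroup (LinearMap.GeneralLinearGroup k M)} (σ : LinearMap.GeneralLinearGroup k M) :
    (sameActionSubgroup G σ : Set (LinearMap.GeneralLinearGroup k M)) =
        sameActionClass G σ ∪ {1} ∧
    IsMulCommutative ↥(sameActionSubgroup G σ) ∧
    (∀ p : ℕ, p.Prime → ringChar k = p → ∀ x ∈ sameActionSubgroup G σ, x ^ p = 1) := by
  obtain ⟨H, hH⟩ : ∃ H : Subgroup (LinearMap.GeneralLinearGroup k M),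
      (H : Set (LinearMap.GeneralLinearGroup k M)) = sameActionClass G σ ∪ {1} := by
    refine ⟨{ carrier := sameActionClass G σ ∪ {1}
              mul_mem' := ?_
              one_mem' := Or.inr rfl
              inv_mem' := ?_ }, rfl⟩
    · rintro a b (ha | ha) (hb | hb)
      · rcases (sameAction_mul ha hb).2 with h | h
        · exact Or.inl h
        · exact Or.inr h
      · rw [Set.mem_singleton_iff] at hb
        rw [hb, mul_one]
        exact Or.inl ha
      · rw [Set.mem_singleton_iff] at ha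
        rw [ha, one_mul]
        exact Or.inl hb
      · rw [Set.mem_singleton_iff] at ha hb
        rw [ha, hb, mul_one]
        exact Or.inr rfl
    · rintro a (ha | ha)
      · exact Or.inl (sameAction_inv ha)
      · rw [Set.mem_singleton_iff] at ha
        rw [ha, inv_one]
        exact Or.inr rfl
  have hEq : sameActionSubgroup G σ = H := by
    apply le_antisymm
    · show Subgroup.closure (sameActionClass G σ) ≤ H
      rw [Subgroup.closure_le, hH]
      exact Set.subset_union_left
    · intro x hx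
      have hx' : x ∈ (H : Set (LinearMap.GeneralLinearGroup k M)) := hx
      rw [hH] at hx'
      rcases hx' with h | h
      · exact Subgroup.subset_closure h
      · rw [Set.mem_singleton_iff] at h
        rw [h]
        exact Subgroup.one_mem _
  have hmem : ∀ x ∈ sameActionSubgroup G σ, x ∈ sameActionClass G σ ∨ x = 1 := by
    intro x hx
    rw [hEq] at hx
    have hx' : x ∈ (H : Set (LinearMap.GeneralLinearGroup k M)) := hx
    rw [hH] at hx'
    exact hx'
  refine ⟨by rw [hEq, hH], ⟨⟨fun a b => ?_⟩⟩, ?_⟩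
  · apply Subtype.ext
    show (a : LinearMap.GeneralLinearGroup k M) * b = b * a
    rcases hmem a a.2 with ha | ha <;> rcases hmem b b.2 with hb | hb
    · exact (sameAction_mul ha hb).1
    · rw [hb, mul_one, one_mul]
    · rw [ha, mul_one, one_mul]
    · rw [ha, hb]
  · intro p _ hchar x hx
    rcases hmem x hx with h | h
    · exact sameAction_pow h hchar
    · rw [h, one_pow]

end QuadPair

end Cfsg.Agent.Helper26
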