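import Mathlib
import Cfsg.Prelude.Def_RootSubgroups
import Cfsg.Agent.Helper26.SylowAux

set_option autoImplicit false

namespace Cfsg.Agent.Helper26

open Cfsg

section RootImage

variable {G H : Type*} [Group G] [Group H]

theorem map_conjBy (f : G →* H) (A : Subgroup G) (g : G) :
    (conjBy A g).map f = conjBy (A.map f) (f g) := by
  have e : f.comp (MulAut.conj g).toMonoidHom = (MulAut.conj (f g)).toMonoidHom.comp f :=
    MonoidHom.ext fun x => by
      show f (g * x * g⁻¹) = f g * f x * (f g)⁻¹
      rw [map_mul, map_mul, map_inv]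
  show (A.map (MulAut.conj g).toMonoidHom).map f = (A.map f).map (MulAut.conj (f g)).toMonoidHom
  rw [Subgroup.map_map, Subgroup.map_map, e]

theorem conjBy_of_mem {K : Subgroup G} {x : G} (hx : x ∈ K) : conjBy K x = K := by
  ext y
  show y ∈ K.map (MulAut.conj x).toMonoidHom ↔ y ∈ K
  rw [mem_map_conj]
  constructor
  · intro h
    have h2 := K.mul_mem (K.mul_mem hx h) (K.inv_mem hx)
    have e : x * (x⁻¹ * y * x) * x⁻¹ = y := by group
    rw [e] at h2
    exact h2
  · intro h
    exact K.mul_mem (K.mul_mem (K.inv_mem hx) h) hx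

theorem rankOneCondition_map (f : G →* H) {A B : Subgroup G} (h : RankOneCondition A B)
    (hne : A.map f ≠ B.map f) : RankOneCondition (A.map f) (B.map f) := by
  rintro _ ⟨a, ha, rfl⟩ ha1
  have ha1' : a ≠ 1 := by
    intro h1
    apply ha1
    rw [h1, map_one]
  obtain ⟨b, hb, hb1, hconj⟩ := h a ha ha1'
  have hc : conjBy (A.map f) (f b)⁻¹ = conjBy (B.map f) (f a)⁻¹ := by
    rw [← map_inv, ← map_inv, ← map_conjBy, ← map_conjBy, hconj]
  refine ⟨f b, Subgroup.mem_map_of_mem f hb, ?_, hc⟩
  intro hfb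
  apply hne
  rw [hfb, inv_one] at hc
  have hA1 : conjBy (A.map f) 1 = A.map f := conjBy_of_mem (Subgroup.one_mem _)
  rw [hA1] at hc
  have hfa : f a ∈ A.map f := Subgroup.mem_map_of_mem f ha
  have key : ∀ x : H, x ∈ A.map f ↔ f a * x * (f a)⁻¹ ∈ B.map f := by
    intro x
    have h1 : x ∈ A.map f ↔ x ∈ (B.map f).map (MulAut.conj (f a)⁻¹).toMonoidHom := by
      have h2 : A.map f = (B.map f).map (MulAut.conj (f a)⁻¹).toMonoidHom := hc
      exact ⟨fun hx => h2 ▸ hx, fun hx => h2.symm ▸ hx⟩
    rw [h1, mem_map_conj, inv_inv]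
  apply le_antisymm
  · intro x hx
    have hx' : (f a)⁻¹ * x * f a ∈ A.map f :=
      (A.map f).mul_mem ((A.map f).mul_mem ((A.map f).inv_mem hfa) hx) hfa
    have h2 := (key _).1 hx'
    have e : f a * ((f a)⁻¹ * x * f a) * (f a)⁻¹ = x := by group
    rw [e] at h2
    exact h2
  · intro y hy
    have h2 : (f a)⁻¹ * y * f a ∈ A.map f := by
      rw [key]
      have e : f a * ((f a)⁻¹ * y * f a) * (f a)⁻¹ = y := by group
      rw [e]
      exact hy
    have h3 := (A.map f).mul_mem ((A.map f).mul_mem hfa h2) ((A.map f).inv_mem hfa)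
    have e : f a * ((f a)⁻¹ * y * f a) * (f a)⁻¹ = y := by group
    rw [e] at h3
    exact h3

theorem rankOnePair_map (f : G →* H) {A B : Subgroup G} (h : IsRankOnePair A B)
    (hne : A.map f ≠ B.map f) : IsRankOnePair (A.map f) (B.map f) := by
  have hA := h.nilpotent_left
  have hB := h.nilpotent_right
  exact ⟨hne, Group.nilpotent_of_surjective (f.subgroupMap A) (f.subgroupMap_surjective A),
    Group.nilpotent_of_surjective (f.subgroupMap B) (f.subgroupMap_surjective B),
    rankOneCondition_map f h.cond_left hne, rankOneCondition_map f h.cond_right (Ne.symm hne)⟩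

/-- Homomorphic images of sets of abstract root subgroups with connected rank one graph. -/
theorem root_image (S : Set (Subgroup G)) (hS : IsRootSubgroupSet S)
    (hc : IsConnectedFamily (FAdj S) S) (f : G →* H) (hf : Function.Surjective f) :
    (IsRootSubgroupSet ((fun A : Subgroup G => A.map f) '' S) ∧
      IsConnectedFamily (FAdj ((fun A : Subgroup G => A.map f) '' S))
        ((fun A : Subgroup G => A.map f) '' S)) ∨
    ∃ A ∈ S, A.map f = ⊤ := by
  by_cases h0 : ∃ A ∈ S, A.map f = ⊥
  · right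
    obtain ⟨A₀, hA₀, hA₀bot⟩ := h0
    have hstep : ∀ C D : Subgroup G, FAdj S C D → C.map f = ⊥ → D.map f = ⊥ := by
      rintro C D ⟨hC, hD, hCD⟩ hCbot
      have hCne := hS.ne_bot C hC
      obtain ⟨c, hcC, hc1⟩ : ∃ c ∈ C, c ≠ 1 := by
        by_contra hcon
        apply hCne
        rw [Subgroup.eq_bot_iff_forall]
        intro x hx
        by_contra hx1
        exact hcon ⟨x, hx, hx1⟩
      obtain ⟨d, hdD, hd1, hconj⟩ := hCD.cond_left c hcC hc1
      have h1 : conjBy (C.map f) (f d⁻¹) = conjBy (D.map f) (f c⁻¹) := by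
        rw [← map_conjBy, ← map_conjBy, hconj]
      have h2 : conjBy (D.map f) (f c⁻¹) = ⊥ := by
        rw [← h1, hCbot]
        exact Subgroup.map_bot _
      exact (Subgroup.map_eq_bot_iff_of_injective (D.map f) (MulEquiv.injective _)).1 h2
    have hall : ∀ B, Relation.ReflTransGen (FAdj S) A₀ B → B.map f = ⊥ := by
      intro B hp
      induction hp with
      | refl => exact hA₀bot
      | tail _ hCD ih => exact hstep _ _ hCD ih
    have htop : (⊤ : Subgroup H) ≤ ⊥ := by
      rw [← Subgroup.map_top_of_surjective f hf, ← hS.generates, Subgroup.map_le_iff_le_comap]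
      refine iSup₂_le fun B hB => ?_
      rw [← Subgroup.map_le_iff_le_comap]
      exact (hall B (hc A₀ hA₀ B hB)).le
    exact ⟨A₀, hA₀, hA₀bot.trans (le_antisymm bot_le htop)⟩
  · left
    have hnb : ∀ A ∈ S, A.map f ≠ ⊥ := fun A hA h => h0 ⟨A, hA, h⟩
    have hcomm : ∀ A ∈ S, ∀ x ∈ A.map f, ∀ y ∈ A.map f, x * y = y * x := by
      rintro A hA _ ⟨a, ha, rfl⟩ _ ⟨b, hb, rfl⟩
      rw [← map_mul, ← map_mul]
      exact congrArg f (congrArg Subtype.val
        (isMulCommutative_iff.1 (hS.commutative A hA) ⟨a, ha⟩ ⟨b, hb⟩))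
    have hpair : ∀ A ∈ S, ∀ B ∈ S,
        ⁅A.map f, B.map f⁆ = ⊥ ∨ IsRankOnePair (A.map f) (B.map f) ∨
          RootCommutatorCase ((fun A : Subgroup G => A.map f) '' S) (A.map f) (B.map f) := by
      intro A hA B hB
      rcases hS.pair A hA B hB with h | h | h
      · left
        rw [← Subgroup.map_commutator, h, Subgroup.map_bot]
      · by_cases hne : A.map f = B.map f
        · left
          rw [← hne, Subgroup.commutator_eq_bot_iff_le_centralizer]
          intro x hx
          rw [Subgroup.mem_centralizer_iff]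
          intro y hy
          exact hcomm A hA y hy x hx
        · right; left
          exact rankOnePair_map f h hne
      · right; right
        obtain ⟨hC, hcen, hl, hr⟩ := h
        refine ⟨⟨⁅A, B⁆, hC, Subgroup.map_commutator A B f⟩, ?_, ?_, ?_⟩
        · intro c hc x hx
          rw [← Subgroup.map_commutator] at hc
          rw [← Subgroup.map_sup] at hx
          obtain ⟨c₀, hc₀, rfl⟩ := hc
          obtain ⟨x₀, hx₀, rfl⟩ := hx
          rw [← map_mul, ← map_mul, hcen c₀ hc₀ x₀ hx₀]
        · rintro _ ⟨a, ha, rfl⟩ ha1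
          have ha1' : a ≠ 1 := by
            intro h1
            apply ha1
            rw [h1, map_one]
          have e : (fun b : H => f a * b * (f a)⁻¹ * b⁻¹) '' ((B.map f : Subgroup H) : Set H)
              = f '' ((fun b : G => a * b * a⁻¹ * b⁻¹) '' (B : Set G)) := by
            ext y
            constructor
            · rintro ⟨_, ⟨b, hb, rfl⟩, rfl⟩
              exact ⟨a * b * a⁻¹ * b⁻¹, ⟨b, hb, rfl⟩, by
                rw [map_mul, map_mul, map_mul, map_inv, map_inv]⟩
            · rintro ⟨_, ⟨b, hb, rfl⟩, rfl⟩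
              exact ⟨f b, ⟨b, hb, rfl⟩, by
                rw [map_mul, map_mul, map_mul, map_inv, map_inv]⟩
          rw [e, ← MonoidHom.map_closure, hl a ha ha1', Subgroup.map_commutator]
        · rintro _ ⟨b, hb, rfl⟩ hb1
          have hb1' : b ≠ 1 := by
            intro h1
            apply hb1
            rw [h1, map_one]
          have e : (fun a : H => a * f b * a⁻¹ * (f b)⁻¹) '' ((A.map f : Subgroup H) : Set H)
              = f '' ((fun a : G => a * b * a⁻¹ * b⁻¹) '' (A : Set G)) := by
            ext y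
            constructor
            · rintro ⟨_, ⟨a, ha, rfl⟩, rfl⟩
              exact ⟨a * b * a⁻¹ * b⁻¹, ⟨a, ha, rfl⟩, by
                rw [map_mul, map_mul, map_mul, map_inv, map_inv]⟩
            · rintro ⟨_, ⟨a, ha, rfl⟩, rfl⟩
              exact ⟨f a, ⟨a, ha, rfl⟩, by
                rw [map_mul, map_mul, map_mul, map_inv, map_inv]⟩
          rw [e, ← MonoidHom.map_closure, hr b hb hb1', Subgroup.map_commutator]
    refine ⟨⟨?_, ?_, ?_, ?_, ?_⟩, ?_⟩
    · rintro _ ⟨A, hA, rfl⟩
      exact isMulCommutative_iff.2 fun x y => Subtype.ext (hcomm A hA x.1 x.2 y.1 y.2)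
    · rintro _ ⟨A, hA, rfl⟩
      exact hnb A hA
    · rw [eq_top_iff, ← Subgroup.map_top_of_surjective f hf, ← hS.generates,
        Subgroup.map_le_iff_le_comap]
      refine iSup₂_le fun A hA => ?_
      rw [← Subgroup.map_le_iff_le_comap]
      exact le_iSup₂ (f := fun (B : Subgroup H)
        (_ : B ∈ (fun A : Subgroup G => A.map f) '' S) => B) (A.map f) ⟨A, hA, rfl⟩
    · rintro _ ⟨A, hA, rfl⟩ h
      obtain ⟨g, rfl⟩ := hf h
      exact ⟨conjBy A g, hS.conj_mem A hA g, map_conjBy f A g⟩
    · rintro _ ⟨A, hA, rfl⟩ _ ⟨B, hB, rfl⟩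
      exact hpair A hA B hB
    · rintro _ ⟨A, hA, rfl⟩ _ ⟨B, hB, rfl⟩
      have hpath : ∀ A B : Subgroup G, Relation.ReflTransGen (FAdj S) A B →
          Relation.ReflTransGen (FAdj ((fun A : Subgroup G => A.map f) '' S))
            (A.map f) (B.map f) := by
        intro A B hp
        induction hp with
        | refl => exact Relation.ReflTransGen.refl
        | @tail C D _ hCD ih =>
          by_cases hne : C.map f = D.map f
          · rw [← hne]
            exact ih
          · exact ih.tail ⟨⟨C, hCD.1, rfl⟩, ⟨D, hCD.2.1, rfl⟩, rankOnePair_map f hCD.2.2 hne⟩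
      exact hpath A B (hc A hA B hB)

end RootImage

end Cfsg.Agent.Helper26
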