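import Cfsg.Agent.Helper2.Dihedral
import Cfsg.Agent.Helper21.BaerSuzuki
import Cfsg.Agent.Helper26.OddTransp

set_option autoImplicit false

namespace Cfsg.Agent.Helper26

open Cfsg

section RootInvIso

variable {G : Type*} [Group G]

theorem ri_orderOf_conj (g x : G) : orderOf (g * x * g⁻¹) = orderOf x :=
  (MulAut.conj g).orderOf_eq x

theorem ri_orderOf_mul_comm (a b : G) : orderOf (b * a) = orderOf (a * b) := by
  have e : b * a = a⁻¹ * (a * b) * a⁻¹⁻¹ := by group
  rw [e, ri_orderOf_conj]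

theorem ri_comm_of_sq {a b : G} (ha : a * a = 1) (hb : b * b = 1)
    (h : (a * b) * (a * b) = 1) : a * b = b * a := by
  have h1 : a * b = (a * b)⁻¹ := eq_inv_of_mul_eq_one_left h
  rw [mul_inv_rev, inv_eq_of_mul_eq_one_left ha, inv_eq_of_mul_eq_one_left hb] at h1
  exact h1

/-- two involutions whose product has `2`-power order generate a `2`-group -/
theorem isPGroup_closure_pair_of_pow {x y : G} (hx : x * x = 1) (hy : y * y = 1) {j : ℕ}
    (h : (x * y) ^ (2 ^ j) = 1) : IsPGroup 2 (Subgroup.closure ({x, y} : Set G)) := by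
  rintro ⟨d, hd⟩
  obtain ⟨k, rfl | rfl⟩ := (Helper2.mem_closure_pair_iff hx hy d).1 hd
  · refine ⟨j, Subtype.ext ?_⟩
    show ((x * y) ^ k) ^ 2 ^ j = 1
    rw [← zpow_natCast, ← zpow_mul, mul_comm k, zpow_mul, zpow_natCast, h, one_zpow]
  · refine ⟨1, Subtype.ext ?_⟩
    show ((x * y) ^ k * x) ^ 2 ^ 1 = 1
    rw [pow_one, pow_two]
    calc (x * y) ^ k * x * ((x * y) ^ k * x) = (x * y) ^ k * (x * (x * y) ^ k) * x := by
          simp only [mul_assoc]
      _ = (x * y) ^ k * ((x * y) ^ (-k) * x) * x := by rw [Helper2.inv_mul_zpow hx hy]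
      _ = 1 := by
        rw [← mul_assoc, ← zpow_add, add_neg_cancel, zpow_zero, one_mul, hx]

theorem ri_no_pair {D : Set G} (hD : IsRootInvolutionSet D) {u v t r : G} (hu : u ∈ D)
    (hv : v ∈ D) (huv : u * v = t * r) (ht : t ^ 2 = 1) (ht1 : t ≠ 1) (hc : Commute t r)
    (hr : Odd (orderOf r)) (hr1 : r ≠ 1) : False := by
  have hu2 : u * u = 1 := Helper2.sq_of_orderOf_two (hD.orderOf_eq u hu)
  have hv2 : v * v = 1 := Helper2.sq_of_orderOf_two (hD.orderOf_eq v hv)
  rcases hD.pair u hu v hv with h | h | h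
  · have h1 : (u * v) ^ 2 = 1 := by
      rw [pow_two]
      calc u * v * (u * v) = u * v * (v * u) := by rw [h]
        _ = u * (v * v) * u := by simp only [mul_assoc]
        _ = 1 := by rw [hv2, mul_one, hu2]
    rw [huv, hc.mul_pow, ht, one_mul] at h1
    exact hr1 (eq_one_of_sq_of_odd h1 hr)
  · rw [huv] at h
    exact ht1 (eq_one_of_odd_mul ht hc hr h)
  · have h1 : (u * v) ^ 4 = 1 := by rw [← h.1]; exact pow_orderOf_eq_one _
    rw [huv, hc.mul_pow] at h1
    have ht4 : t ^ 4 = 1 := by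
      have e : t ^ 4 = (t ^ 2) ^ 2 := by rw [← pow_mul]
      rw [e, ht, one_pow]
    rw [ht4, one_mul] at h1
    have h2 : r ^ 2 ^ 2 = 1 := h1
    exact hr1 (Helper16.eq_one_of_coprime_of_pow (p := 2) hr.coprime_two_right h2)

theorem ri_sq_mem_of_order_four {D : Set G} (hD : IsRootInvolutionSet D) {a b : G} (ha : a ∈ D)
    (hb : b ∈ D) (h4 : orderOf (a * b) = 4) : (a * b) ^ 2 ∈ D := by
  have ha2 : a * a = 1 := Helper2.sq_of_orderOf_two (hD.orderOf_eq a ha)
  have hb2 : b * b = 1 := Helper2.sq_of_orderOf_two (hD.orderOf_eq b hb)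
  rcases hD.pair a ha b hb with h | h | h
  · exfalso
    have h1 : (a * b) ^ 2 = 1 := by
      rw [pow_two]
      calc a * b * (a * b) = a * b * (b * a) := by rw [h]
        _ = a * (b * b) * a := by simp only [mul_assoc]
        _ = 1 := by rw [hb2, mul_one, ha2]
    have h2 : orderOf (a * b) ∣ 2 := orderOf_dvd_of_pow_eq_one h1
    rw [h4] at h2
    exact absurd h2 (by decide)
  · exfalso
    rw [h4] at h
    exact absurd h (by decide)
  · exact h.2

theorem ri_oddAdj_symm {D : Set G} {a b : G} (h : OddAdj D a b) : OddAdj D b a :=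
  ⟨h.2.1, h.1, Ne.symm h.2.2.1, by rw [ri_orderOf_mul_comm a b]; exact h.2.2.2⟩

theorem ri_oddAdj_conj {D : Set G} (hD : IsRootInvolutionSet D) (g : G) {a b : G}
    (h : OddAdj D a b) : OddAdj D (g * a * g⁻¹) (g * b * g⁻¹) := by
  obtain ⟨ha, hb, hne, hodd⟩ := h
  refine ⟨hD.conj_mem a ha g, hD.conj_mem b hb g, fun h' => hne ?_, ?_⟩
  · exact mul_left_cancel (mul_right_cancel h')
  · have e : g * a * g⁻¹ * (g * b * g⁻¹) = g * (a * b) * g⁻¹ := by group
    rw [e, ri_orderOf_conj]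
    exact hodd

theorem ri_isolated_conj {D : Set G} (hD : IsRootInvolutionSet D) {w : G}
    (hw : IsIsolatedElem (OddAdj D) D w) (g : G) :
    IsIsolatedElem (OddAdj D) D (g * w * g⁻¹) := by
  refine ⟨hD.conj_mem w hw.1 g, fun b => ⟨fun h => ?_, fun h => ?_⟩⟩
  · have h' := ri_oddAdj_conj hD g⁻¹ h
    have e : g⁻¹ * (g * w * g⁻¹) * g⁻¹⁻¹ = w := by group
    rw [e] at h'
    exact (hw.2 _).1 h'
  · have h' := ri_oddAdj_conj hD g⁻¹ h
    have e : g⁻¹ * (g * w * g⁻¹) * g⁻¹⁻¹ = w := by group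
    rw [e] at h'
    exact (hw.2 _).2 h'

theorem ri_comp_eq {D : Set G} {a b : G} (h : Relation.ReflTransGen (OddAdj D) a b) :
    elemComponentOf (OddAdj D) D a = elemComponentOf (OddAdj D) D b := by
  have h' : Relation.ReflTransGen (OddAdj D) b a := by
    induction h with
    | refl => exact Relation.ReflTransGen.refl
    | tail _ hbc ih => exact Relation.ReflTransGen.head (ri_oddAdj_symm hbc) ih
  ext c
  exact ⟨fun hc => ⟨hc.1, h'.trans hc.2⟩, fun hc => ⟨hc.1, h.trans hc.2⟩⟩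

theorem ri_isolated_pair_pow {D : Set G} (hD : IsRootInvolutionSet D) {w w' : G}
    (hw : IsIsolatedElem (OddAdj D) D w) (hw' : IsIsolatedElem (OddAdj D) D w') :
    (w * w') ^ 2 ^ 2 = 1 := by
  have hw2 : w * w = 1 := Helper2.sq_of_orderOf_two (hD.orderOf_eq w hw.1)
  have hw'2 : w' * w' = 1 := Helper2.sq_of_orderOf_two (hD.orderOf_eq w' hw'.1)
  have h22 : (2 : ℕ) ^ 2 = 2 * 2 := by norm_num
  rcases hD.pair w hw.1 w' hw'.1 with h | h | h
  · have h1 : (w * w') ^ 2 = 1 := by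
      rw [pow_two]
      calc w * w' * (w * w') = w * w' * (w' * w) := by rw [h]
        _ = w * (w' * w') * w := by simp only [mul_assoc]
        _ = 1 := by rw [hw'2, mul_one, hw2]
    rw [h22, pow_mul, h1, one_pow]
  · by_cases hne : w = w'
    · rw [← hne, hw2, one_pow]
    · exact absurd (show OddAdj D w w' from ⟨hw.1, hw'.1, hne, h⟩) (hw.2 w').1
  · have h0 := pow_orderOf_eq_one (w * w')
    rw [h.1] at h0
    exact h0

theorem ri_not_odd_of_mem_normal {N : Subgroup G} (hNn : N.Normal) (hNp : IsPGroup 2 N)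
    {d b : G} (hd : d ∈ N) (hb2 : b * b = 1) (hne : d ≠ b) (hodd : Odd (orderOf (d * b))) :
    False := by
  have hbi : b⁻¹ = b := inv_eq_of_mul_eq_one_left hb2
  have h1 : (d * b) ^ 2 ∈ N := by
    have e : (d * b) ^ 2 = d * (b * d * b⁻¹) := by rw [pow_two, hbi]; simp only [mul_assoc]
    rw [e]
    exact N.mul_mem hd (hNn.conj_mem d hd b)
  obtain ⟨k, hk⟩ := hNp ⟨(d * b) ^ 2, h1⟩
  have hk' : ((d * b) ^ 2) ^ 2 ^ k = 1 := by
    have h0 := congrArg Subtype.val hk
    rw [Subgroup.coe_pow, Subgroup.coe_one] at h0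
    exact h0
  have hk'' : (d * b) ^ 2 ^ (k + 1) = 1 := by
    rw [pow_succ', pow_mul]; exact hk'
  have h2 : d * b = 1 :=
    Helper16.eq_one_of_coprime_of_pow (p := 2) hodd.coprime_two_right hk''
  have h3 : d = b⁻¹ := eq_inv_of_mul_eq_one_left h2
  rw [hbi] at h3
  exact hne h3

/-- The pattern (odd, 4, 4) does not occur on a four-group of root involutions. -/
theorem ri_lemmaB {D : Set G} (hD : IsRootInvolutionSet D) {x y f : G} (hx : x ∈ D)
    (hy : y ∈ D) (hf : f ∈ D) (hxy : x * y = y * x) (hw : x * y ∈ D)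
    (hodd : Odd (orderOf (x * f))) (h4 : orderOf (y * f) = 4) : orderOf (x * y * f) ≠ 4 := by
  intro h4'
  have hx2 : x * x = 1 := Helper2.sq_of_orderOf_two (hD.orderOf_eq x hx)
  have hy2 : y * y = 1 := Helper2.sq_of_orderOf_two (hD.orderOf_eq y hy)
  have hf2 : f * f = 1 := Helper2.sq_of_orderOf_two (hD.orderOf_eq f hf)
  have hfi : f⁻¹ = f := Helper2.inv_of_orderOf_two (hD.orderOf_eq f hf)
  have hyi : y⁻¹ = y := Helper2.inv_of_orderOf_two (hD.orderOf_eq y hy)
  have hf2' : ∀ z : G, f * (f * z) = z := fun z => by rw [← mul_assoc, hf2, one_mul]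
  obtain ⟨w, hwdef⟩ : ∃ w, w = x * y := ⟨_, rfl⟩
  rw [← hwdef] at hw h4'
  have hw2 : w * w = 1 := Helper2.sq_of_orderOf_two (hD.orderOf_eq w hw)
  have hwi : w⁻¹ = w := Helper2.inv_of_orderOf_two (hD.orderOf_eq w hw)
  obtain ⟨y₁, hy₁def⟩ : ∃ y₁, y₁ = f * y * f⁻¹ := ⟨_, rfl⟩
  obtain ⟨w₁, hw₁def⟩ : ∃ w₁, w₁ = f * w * f⁻¹ := ⟨_, rfl⟩
  have hy₁ : y₁ ∈ D := by rw [hy₁def]; exact hD.conj_mem y hy f
  have hw₁ : w₁ ∈ D := by rw [hw₁def]; exact hD.conj_mem w hw f
  have hy₁2 : y₁ * y₁ = 1 := Helper2.sq_of_orderOf_two (hD.orderOf_eq y₁ hy₁)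
  have hw₁2 : w₁ * w₁ = 1 := Helper2.sq_of_orderOf_two (hD.orderOf_eq w₁ hw₁)
  have hxyw : x = y * w := by
    rw [hwdef, hxy, ← mul_assoc, hy2, one_mul]
  have hwy : w * y = y * w := by
    rw [hwdef, mul_assoc, hy2, mul_one, hxy, ← mul_assoc, hy2, one_mul]
  have hs_eq : (y * f) ^ 2 = y * y₁ := by
    rw [hy₁def, hfi, pow_two]; group
  have hs'_eq : (w * f) ^ 2 = w * w₁ := by
    rw [hw₁def, hfi, pow_two]; group
  have hs4 : (y * y₁) * (y * y₁) = 1 := by
    rw [← hs_eq, ← pow_two, ← pow_mul]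
    have h0 := pow_orderOf_eq_one (y * f)
    rw [h4] at h0
    exact h0
  have hs'4 : (w * w₁) * (w * w₁) = 1 := by
    rw [← hs'_eq, ← pow_two, ← pow_mul]
    have h0 := pow_orderOf_eq_one (w * f)
    rw [h4'] at h0
    exact h0
  have hyy₁ : y * y₁ = y₁ * y := ri_comm_of_sq hy2 hy₁2 hs4
  have hww₁ : w * w₁ = w₁ * w := ri_comm_of_sq hw2 hw₁2 hs'4
  have hfs : f * (y * y₁) = (y * y₁) * f := by
    have e1 : f * y = y₁ * f := by rw [hy₁def, hfi]; simp only [mul_assoc, hf2, mul_one]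
    have e2 : f * y₁ = y * f := by rw [hy₁def, hfi]; simp only [← mul_assoc, hf2, one_mul]
    calc f * (y * y₁) = (f * y) * y₁ := by rw [mul_assoc]
      _ = y₁ * (f * y₁) := by rw [e1, mul_assoc]
      _ = y₁ * y * f := by rw [e2, mul_assoc]
      _ = y * y₁ * f := by rw [hyy₁]
  have hfs' : f * (w * w₁) = (w * w₁) * f := by
    have e1 : f * w = w₁ * f := by rw [hw₁def, hfi]; simp only [mul_assoc, hf2, mul_one]
    have e2 : f * w₁ = w * f := by rw [hw₁def, hfi]; simp only [← mul_assoc, hf2, one_mul]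
    calc f * (w * w₁) = (f * w) * w₁ := by rw [mul_assoc]
      _ = w₁ * (f * w₁) := by rw [e1, mul_assoc]
      _ = w₁ * w * f := by rw [e2, mul_assoc]
      _ = w * w₁ * f := by rw [hww₁]
  have hρ : (x * f) ^ 2 = y * w * (y₁ * w₁) := by
    rw [pow_two, hy₁def, hw₁def, hfi, hxyw]
    simp only [mul_assoc, hf2']
  have hr_conj : (y * y₁) * (w * w₁) = w * (x * f) ^ 2 * w⁻¹ := by
    rw [hρ, hwi]
    calc y * y₁ * (w * w₁) = y * y₁ * (w₁ * w) := by rw [hww₁]
      _ = y * (w * w) * y₁ * (w₁ * w) := by rw [hw2, mul_one]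
      _ = (y * w) * w * y₁ * (w₁ * w) := by simp only [mul_assoc]
      _ = (w * y) * w * y₁ * (w₁ * w) := by rw [hwy]
      _ = w * (y * w * (y₁ * w₁)) * w := by simp only [mul_assoc]
  have hr_order : orderOf ((y * y₁) * (w * w₁)) = orderOf ((x * f) ^ 2) := by
    rw [hr_conj, ri_orderOf_conj]
  have hr_odd : Odd (orderOf ((y * y₁) * (w * w₁))) := by
    rw [hr_order]
    exact Odd.of_dvd_nat hodd (orderOf_pow_dvd 2)
  have hr_ne : (y * y₁) * (w * w₁) ≠ 1 := by
    intro h1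
    have h2 : orderOf ((x * f) ^ 2) = 1 := by rw [← hr_order, h1, orderOf_one]
    have h3 : (x * f) ^ 2 = 1 := orderOf_eq_one_iff.1 h2
    have h5 : x * f = 1 := eq_one_of_sq_of_odd h3 hodd
    have h6 : f = x := by
      have h7 := eq_inv_of_mul_eq_one_right h5
      rw [h7, Helper2.inv_of_orderOf_two (hD.orderOf_eq x hx)]
    have h7 : (y * f) ^ 2 = 1 := by
      rw [h6, pow_two]
      calc y * x * (y * x) = y * x * (x * y) := by rw [hxy]
        _ = y * (x * x) * y := by simp only [mul_assoc]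
        _ = 1 := by rw [hx2, mul_one, hy2]
    have h8 : orderOf (y * f) ∣ 2 := orderOf_dvd_of_pow_eq_one h7
    rw [h4] at h8
    exact absurd h8 (by decide)
  have hu : y * f * y⁻¹ ∈ D := hD.conj_mem f hf y
  have hv : w * w₁ ∈ D := by rw [← hs'_eq]; exact ri_sq_mem_of_order_four hD hw hf h4'
  have huv : y * f * y⁻¹ * (w * w₁) = f * ((y * y₁) * (w * w₁)) := by
    have e1 : y * f * y⁻¹ = f * (y * y₁) := by
      rw [hfs, hyi, hy₁def, hfi]
      simp only [mul_assoc, hf2, mul_one]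
    rw [e1]; simp only [mul_assoc]
  have hcomm : Commute f ((y * y₁) * (w * w₁)) := by
    show f * ((y * y₁) * (w * w₁)) = (y * y₁) * (w * w₁) * f
    calc f * ((y * y₁) * (w * w₁)) = (f * (y * y₁)) * (w * w₁) := by simp only [mul_assoc]
      _ = (y * y₁) * (f * (w * w₁)) := by rw [hfs]; simp only [mul_assoc]
      _ = (y * y₁) * (w * w₁) * f := by rw [hfs']; simp only [mul_assoc]
  exact ri_no_pair hD hu hv huv (by rw [pow_two]; exact hf2)
    (Helper2.ne_one_of_orderOf_two (hD.orderOf_eq f hf)) hcomm hr_odd hr_ne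

theorem ri_lemmaB' {D : Set G} (hD : IsRootInvolutionSet D) {x y f : G} (hx : x ∈ D)
    (hy : y ∈ D) (hf : f ∈ D) (hxy : x * y = y * x) (hw : x * y ∈ D)
    (hodd : Odd (orderOf (x * f))) (h4 : orderOf (y * f) = 4) : OddAdj D (x * y) f := by
  have hx2 : x * x = 1 := Helper2.sq_of_orderOf_two (hD.orderOf_eq x hx)
  have hy2 : y * y = 1 := Helper2.sq_of_orderOf_two (hD.orderOf_eq y hy)
  have hne : x * y ≠ f := by
    intro h
    have h1 : y * f = x := by rw [← h, hxy, ← mul_assoc, hy2, one_mul]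
    rw [h1, hD.orderOf_eq x hx] at h4
    exact absurd h4 (by decide)
  refine ⟨hw, hf, hne, ?_⟩
  rcases hD.pair (x * y) hw f hf with h | h | h
  · exfalso
    have e : y * f = x * y * (x * f) := by rw [hxy, mul_assoc, ← mul_assoc x, hx2, one_mul]
    have hwx : x * y * x = x * (x * y) := by rw [mul_assoc, ← hxy]
    have hcomm : Commute (x * y) (x * f) := by
      show x * y * (x * f) = x * f * (x * y)
      calc x * y * (x * f) = (x * y * x) * f := by simp only [mul_assoc]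
        _ = x * (x * y * f) := by rw [hwx]; simp only [mul_assoc]
        _ = x * (f * (x * y)) := by rw [h]
        _ = x * f * (x * y) := by simp only [mul_assoc]
    have hr1 : x * f ≠ 1 := by
      intro h1
      rw [e, h1, mul_one, hD.orderOf_eq _ hw] at h4
      exact absurd h4 (by decide)
    have hw2 : (x * y) ^ 2 = 1 := by
      rw [pow_two]; exact Helper2.sq_of_orderOf_two (hD.orderOf_eq _ hw)
    exact ri_no_pair hD hy hf e hw2 (Helper2.ne_one_of_orderOf_two (hD.orderOf_eq _ hw)) hcomm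
      hodd hr1
  · exact h
  · exact absurd h.1 (ri_lemmaB hD hx hy hf hxy hw hodd h4)

theorem ri_productPartners_subset {D : Set G} (hD : IsRootInvolutionSet D) {a : G} (ha : a ∈ D)
    (hcomp : ∃ a' ∈ elemComponentOf (OddAdj D) D a, a' ≠ a) :
    productPartners D a ⊆
      elemComponentOf (OddAdj D) D a ∪ {w | IsIsolatedElem (OddAdj D) D w} := by
  rintro e ⟨⟨he, hea, hne⟩, hprod⟩
  by_cases hiso : IsIsolatedElem (OddAdj D) D e
  · exact Or.inr hiso
  left
  have ha2 : a * a = 1 := Helper2.sq_of_orderOf_two (hD.orderOf_eq a ha)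
  have he2 : e * e = 1 := Helper2.sq_of_orderOf_two (hD.orderOf_eq e he)
  have ha1 : a ≠ 1 := Helper2.ne_one_of_orderOf_two (hD.orderOf_eq a ha)
  have he1 : e ≠ 1 := Helper2.ne_one_of_orderOf_two (hD.orderOf_eq e he)
  obtain ⟨c, hec⟩ : ∃ c, OddAdj D e c := by
    by_contra hcon
    apply hiso
    exact ⟨he, fun b => ⟨fun h => hcon ⟨b, h⟩, fun h => hcon ⟨b, ri_oddAdj_symm h⟩⟩⟩
  obtain ⟨-, hc, hec_ne, hec_odd⟩ := hec
  have hce : OddAdj D c e := ri_oddAdj_symm ⟨he, hc, hec_ne, hec_odd⟩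
  refine ⟨he, ?_⟩
  have hec1 : e * c ≠ 1 := by
    intro h
    have h3 : e = c⁻¹ := eq_inv_of_mul_eq_one_left h
    rw [Helper2.inv_of_orderOf_two (hD.orderOf_eq c hc)] at h3
    exact hec_ne h3
  rcases hD.pair a ha c hc with h | h | h
  · exfalso
    have huv : e * a * c = a * (e * c) := by rw [hea, mul_assoc]
    have hcomm : Commute a (e * c) := by
      show a * (e * c) = e * c * a
      calc a * (e * c) = e * a * c := by rw [hea, mul_assoc]
        _ = e * (a * c) := by rw [mul_assoc]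
        _ = e * (c * a) := by rw [h]
        _ = e * c * a := by rw [mul_assoc]
    exact ri_no_pair hD hprod hc huv (by rw [pow_two]; exact ha2) ha1 hcomm hec_odd hec1
  · have hac_ne : a ≠ c := by
      intro hac
      rw [← hac] at hec_odd
      rw [hD.orderOf_eq (e * a) hprod] at hec_odd
      exact absurd hec_odd (by decide)
    exact (Relation.ReflTransGen.single (show OddAdj D a c from ⟨ha, hc, hac_ne, h⟩)).tail hce
  · have hB : OddAdj D (e * a) c := ri_lemmaB' hD he ha hc hea hprod hec_odd h.1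
    obtain ⟨a', ha'comp, ha'ne⟩ := hcomp
    obtain ⟨g, hag, -⟩ : ∃ g, OddAdj D a g ∧ Relation.ReflTransGen (OddAdj D) g a' := by
      rcases Relation.ReflTransGen.cases_head ha'comp.2 with h0 | h0
      · exact absurd h0.symm ha'ne
      · exact h0
    obtain ⟨-, hg, hag_ne, hag_odd⟩ := hag
    have hag' : OddAdj D a g := ⟨ha, hg, hag_ne, hag_odd⟩
    have hag1 : a * g ≠ 1 := by
      intro h'
      have h3 : a = g⁻¹ := eq_inv_of_mul_eq_one_left h'
      rw [Helper2.inv_of_orderOf_two (hD.orderOf_eq g hg)] at h3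
      exact hag_ne h3
    rcases hD.pair e he g hg with h' | h' | h'
    · exfalso
      have huv : e * a * g = e * (a * g) := mul_assoc _ _ _
      have hcomm : Commute e (a * g) := by
        show e * (a * g) = a * g * e
        calc e * (a * g) = a * e * g := by rw [← mul_assoc, hea]
          _ = a * (e * g) := by rw [mul_assoc]
          _ = a * (g * e) := by rw [h']
          _ = a * g * e := by rw [mul_assoc]
      exact ri_no_pair hD hprod hg huv (by rw [pow_two]; exact he2) he1 hcomm hag_odd hag1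
    · have heg_ne : e ≠ g := by
        intro heg
        rw [← heg] at hag_odd
        rw [← hea, hD.orderOf_eq (e * a) hprod] at hag_odd
        exact absurd hag_odd (by decide)
      exact (Relation.ReflTransGen.single hag').tail
        (ri_oddAdj_symm (show OddAdj D e g from ⟨he, hg, heg_ne, h'⟩))
    · have hB2 : OddAdj D (a * e) g :=
        ri_lemmaB' hD ha he hg hea.symm (by rw [← hea]; exact hprod) hag_odd h'.1
      rw [← hea] at hB2
      exact (((Relation.ReflTransGen.single hag').tail (ri_oddAdj_symm hB2)).tail hB).tail hce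

theorem ri_sq_mem_productPartners {D : Set G} (hD : IsRootInvolutionSet D) {a b : G}
    (ha : a ∈ D) (hb : b ∈ D) (h4 : orderOf (a * b) = 4) :
    (a * b) ^ 2 ∈ productPartners D a := by
  have ha2 : a * a = 1 := Helper2.sq_of_orderOf_two (hD.orderOf_eq a ha)
  have hb2 : b * b = 1 := Helper2.sq_of_orderOf_two (hD.orderOf_eq b hb)
  have hai : a⁻¹ = a := Helper2.inv_of_orderOf_two (hD.orderOf_eq a ha)
  have hbi : b⁻¹ = b := Helper2.inv_of_orderOf_two (hD.orderOf_eq b hb)
  have ha1 : a ≠ 1 := Helper2.ne_one_of_orderOf_two (hD.orderOf_eq a ha)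
  have hz : (a * b) ^ 2 ∈ D := ri_sq_mem_of_order_four hD ha hb h4
  have h44 : a * b * (a * b) * (a * b * (a * b)) = 1 := by
    have h := pow_orderOf_eq_one (a * b)
    rw [h4] at h
    have e : (a * b) ^ 4 = a * b * (a * b) * (a * b * (a * b)) := by
      have e4 : (4 : ℕ) = 2 * 2 := by norm_num
      rw [e4, pow_mul, pow_two, pow_two]
    rw [← e]; exact h
  have haz : a * (a * b) ^ 2 = b * a * b := by
    rw [pow_two]; simp only [← mul_assoc, ha2, one_mul]
  have hza : (a * b) ^ 2 * a = b * a * b := by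
    rw [pow_two]
    have h1 : a * b * (a * b) * a * (b * a * b) = 1 := by rw [← h44]; simp only [mul_assoc]
    have h2 : a * b * (a * b) * a = (b * a * b)⁻¹ := eq_inv_of_mul_eq_one_left h1
    rw [h2]
    simp only [mul_inv_rev, hai, hbi, mul_assoc]
  refine ⟨⟨hz, hza.trans haz.symm, ?_⟩, ?_⟩
  · intro h
    rw [h, ha2] at haz
    have h2 : b * a = b := mul_right_cancel (haz.symm.trans hb2.symm)
    exact ha1 (mul_left_cancel (h2.trans (mul_one b).symm))
  · rw [hza]
    have h5 := hD.conj_mem a ha b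
    rw [hbi] at h5
    exact h5

theorem ri_comm_mem_closure {D : Set G} (hD : IsRootInvolutionSet D) {a b : G} (ha : a ∈ D)
    (hb : b ∈ D) (hca : ∃ a' ∈ elemComponentOf (OddAdj D) D a, a' ≠ a)
    (hcb : ∃ b' ∈ elemComponentOf (OddAdj D) D b, b' ≠ b)
    (hne : elemComponentOf (OddAdj D) D a ≠ elemComponentOf (OddAdj D) D b) :
    a * b * a⁻¹ * b⁻¹ ∈ Subgroup.closure {w | IsIsolatedElem (OddAdj D) D w} := by
  have hai : a⁻¹ = a := Helper2.inv_of_orderOf_two (hD.orderOf_eq a ha)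
  have hbi : b⁻¹ = b := Helper2.inv_of_orderOf_two (hD.orderOf_eq b hb)
  rcases hD.pair a ha b hb with h | h | h
  · have e : a * b * a⁻¹ * b⁻¹ = 1 := by rw [h]; group
    rw [e]; exact one_mem _
  · exfalso
    apply hne
    by_cases hab : a = b
    · rw [hab]
    · exact ri_comp_eq (Relation.ReflTransGen.single (show OddAdj D a b from ⟨ha, hb, hab, h⟩))
  · have e : a * b * a⁻¹ * b⁻¹ = (a * b) ^ 2 := by
      rw [hai, hbi, pow_two]; simp only [mul_assoc]
    rw [e]
    have hza := ri_productPartners_subset hD ha hca (ri_sq_mem_productPartners hD ha hb h.1)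
    have h4' : orderOf (b * a) = 4 := by rw [ri_orderOf_mul_comm a b]; exact h.1
    have hzb := ri_productPartners_subset hD hb hcb (ri_sq_mem_productPartners hD hb ha h4')
    have hzz : (b * a) ^ 2 = (a * b) ^ 2 := by
      have h44 : (a * b) ^ 2 * (a * b) ^ 2 = 1 := by
        have h0 := pow_orderOf_eq_one (a * b)
        rw [h.1] at h0
        rw [← pow_add]; exact h0
      have h1 : (a * b) ^ 2 = ((a * b) ^ 2)⁻¹ := eq_inv_of_mul_eq_one_left h44
      rw [h1, pow_two, pow_two]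
      simp only [mul_inv_rev, hai, hbi, mul_assoc]
    rw [hzz] at hzb
    rcases hza with hza | hza
    · rcases hzb with hzb | hzb
      · exfalso
        exact hne ((ri_comp_eq hza.2).trans (ri_comp_eq hzb.2).symm)
      · exact Subgroup.subset_closure hzb
    · exact Subgroup.subset_closure hza

theorem ri_isolated_structure [Finite G] {D : Set G} (hD : Cfsg.IsRootInvolutionSet D) :
    (∀ w ∈ {w | Cfsg.IsIsolatedElem (Cfsg.OddAdj D) D w}, ∀ g : G, g * w * g⁻¹ ∈ {w | Cfsg.IsIsolatedElem (Cfsg.OddAdj D) D w}) ∧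
    (Subgroup.closure {w | Cfsg.IsIsolatedElem (Cfsg.OddAdj D) D w}).Normal ∧
    IsPGroup 2 ↥(Subgroup.closure {w | Cfsg.IsIsolatedElem (Cfsg.OddAdj D) D w}) ∧
    (Subgroup.closure {w | Cfsg.IsIsolatedElem (Cfsg.OddAdj D) D w} : Set G) ∩ D = {w | Cfsg.IsIsolatedElem (Cfsg.OddAdj D) D w} ∧
    (∀ a ∈ D, ∀ b ∈ D, (∃ a' ∈ Cfsg.elemComponentOf (Cfsg.OddAdj D) D a, a' ≠ a) →
      (∃ b' ∈ Cfsg.elemComponentOf (Cfsg.OddAdj D) D b, b' ≠ b) →
      Cfsg.elemComponentOf (Cfsg.OddAdj D) D a ≠ Cfsg.elemComponentOf (Cfsg.OddAdj D) D b →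
        a * b * a⁻¹ * b⁻¹ ∈ Subgroup.closure {w | Cfsg.IsIsolatedElem (Cfsg.OddAdj D) D w}) ∧
    (∀ a ∈ D, (∃ a' ∈ Cfsg.elemComponentOf (Cfsg.OddAdj D) D a, a' ≠ a) →
      Cfsg.productPartners D a ⊆ Cfsg.elemComponentOf (Cfsg.OddAdj D) D a ∪ {w | Cfsg.IsIsolatedElem (Cfsg.OddAdj D) D w}) := by
  have hp2 : Fact (Nat.Prime 2) := ⟨Nat.prime_two⟩
  have hconj : ∀ w ∈ {w | IsIsolatedElem (OddAdj D) D w}, ∀ g : G,
      g * w * g⁻¹ ∈ {w | IsIsolatedElem (OddAdj D) D w} :=
    fun w hw g => ri_isolated_conj hD hw g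
  obtain ⟨N, hNn, hNp, hWN⟩ := Helper21.baer_suzuki_normal (p := 2)
    {w | IsIsolatedElem (OddAdj D) D w} (fun g x hx => ri_isolated_conj hD hx g)
    (fun x hx y hy => isPGroup_closure_pair_of_pow
      (Helper2.sq_of_orderOf_two (hD.orderOf_eq x hx.1))
      (Helper2.sq_of_orderOf_two (hD.orderOf_eq y hy.1)) (ri_isolated_pair_pow hD hx hy))
  have hle : Subgroup.closure {w | IsIsolatedElem (OddAdj D) D w} ≤ N :=
    (Subgroup.closure_le N).2 (fun x hx => hWN x hx)
  refine ⟨hconj,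
    ⟨fun n hn g => Helper21.conj_mem_closure_of_forall (fun a ha => hconj a ha g) n hn⟩,
    hNp.to_le hle, ?_, fun a ha b hb hca hcb hne => ri_comm_mem_closure hD ha hb hca hcb hne,
    fun a ha hca => ri_productPartners_subset hD ha hca⟩
  ext d
  constructor
  · rintro ⟨hdW, hdD⟩
    have hdN : d ∈ N := hle hdW
    refine ⟨hdD, fun b => ⟨fun h => ?_, fun h => ?_⟩⟩
    · exact ri_not_odd_of_mem_normal hNn hNp hdN
        (Helper2.sq_of_orderOf_two (hD.orderOf_eq b h.2.1)) h.2.2.1 h.2.2.2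
    · exact ri_not_odd_of_mem_normal hNn hNp hdN
        (Helper2.sq_of_orderOf_two (hD.orderOf_eq b h.1)) (Ne.symm h.2.2.1)
        (by rw [ri_orderOf_mul_comm b d]; exact h.2.2.2)
  · intro hd
    exact ⟨Subgroup.subset_closure hd, hd.1⟩

end RootInvIso

end Cfsg.Agent.Helper26
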