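import Cfsg.Agent.Helper26.FusionSat2
import Cfsg.Agent.Helper27.CentricExt

set_option autoImplicit false

namespace Cfsg.Agent.Helper26

open Cfsg Cfsg.FusionSystem

section General

variable {Ω : Type*} [Group Ω] {S : Subgroup Ω}

/-- An invariant subsystem over the same `S` containing `Aut_F(S)` is the whole system. -/
theorem hom_eq_of_autGroup_top_le (F E : FusionSystem S) (hinv : E.IsInvariantIn F)
    (h : F.autGroup S ≤ E.autGroup S) : ∀ P : Subgroup Ω, E.Hom P = F.Hom P := by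
  intro P
  apply Set.Subset.antisymm (hinv.1 P)
  intro φ hφ
  have hPS : P ≤ S := (F.le_of_mem hφ).1
  obtain ⟨α, hα, φ₀, hφ₀, hrel⟩ := hinv.2.2.2 P hPS φ hφ
  have hαE : S.subtype.comp α.toMonoidHom ∈ E.Hom S := (mem_autGroup_iff E le_rfl).1 (h hα)
  exact comp_mem' E hφ₀ hαE
    (fun x => ⟨(E.le_of_mem hφ₀).2 x, hrel x ((E.le_of_mem hφ₀).2 x)⟩)

/-- For an invariant subsystem `E` over the same `S`, `Aut_E(R)` is normalized by `Aut_F(R)`. -/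
theorem conj_mem_autGroup_of_invariant (F E : FusionSystem S) (hinv : E.IsInvariantIn F)
    {R : Subgroup Ω} (hRS : R ≤ S) {γ ε : MulAut R} (hγ : γ ∈ F.autGroup R)
    (hε : ε ∈ E.autGroup R) : γ * ε * γ⁻¹ ∈ E.autGroup R := by
  have hγF : R.subtype.comp γ.toMonoidHom ∈ F.Hom R := (mem_autGroup_iff F hRS).1 hγ
  have hεE : R.subtype.comp ε.toMonoidHom ∈ E.Hom R := (mem_autGroup_iff E hRS).1 hε
  obtain ⟨α, hα, φ₀, hφ₀, hrel⟩ := hinv.2.2.2 R hRS _ hγF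
  have hφ₀S : ∀ x : R, φ₀ x ∈ S := (E.le_of_mem hφ₀).2
  have hrel' : ∀ x : R, ((α ⟨φ₀ x, hφ₀S x⟩ : S) : Ω) = ((γ x : R) : Ω) :=
    fun x => (hrel x (hφ₀S x)).symm
  obtain ⟨ψ, hψ, hψinv⟩ := E.inv_mem hφ₀
  have hψR : ∀ y : φ₀.range, ψ y ∈ R := by
    rintro ⟨_, x, rfl⟩
    rw [hψinv x]; exact x.2
  obtain ⟨χ₁, hχ₁def⟩ : ∃ χ₁ : φ₀.range →* Ω,
      χ₁ = R.subtype.comp (ε.toMonoidHom.comp (ψ.codRestrict R hψR)) := ⟨_, rfl⟩
  have hχ₁ : χ₁ ∈ E.Hom φ₀.range := by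
    rw [hχ₁def]; exact comp_mem' E hψ hεE (fun y => ⟨hψR y, rfl⟩)
  have hχ₁R : ∀ y : φ₀.range, χ₁ y ∈ R := by
    intro y; rw [hχ₁def]; exact (ε _).2
  obtain ⟨ψ₀, hψ₀def⟩ : ∃ ψ₀ : φ₀.range →* Ω, ψ₀ = φ₀.comp (χ₁.codRestrict R hχ₁R) :=
    ⟨_, rfl⟩
  have hψ₀ : ψ₀ ∈ E.Hom φ₀.range := by
    rw [hψ₀def]; exact E.comp_mem hχ₁ hφ₀ hχ₁R
  have hψ₀val : ∀ x : R, ψ₀ ⟨φ₀ x, ⟨x, rfl⟩⟩ = φ₀ (ε x) := by
    intro x
    have e : ψ.codRestrict R hψR ⟨φ₀ x, ⟨x, rfl⟩⟩ = x := Subtype.ext (hψinv x)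
    have e2 : χ₁.codRestrict R hχ₁R ⟨φ₀ x, ⟨x, rfl⟩⟩ = ε x := by
      apply Subtype.ext
      show χ₁ ⟨φ₀ x, ⟨x, rfl⟩⟩ = ((ε x : R) : Ω)
      rw [hχ₁def]
      show ((ε (ψ.codRestrict R hψR ⟨φ₀ x, ⟨x, rfl⟩⟩) : R) : Ω) = ((ε x : R) : Ω)
      rw [e]
    rw [hψ₀def]
    show φ₀ (χ₁.codRestrict R hχ₁R ⟨φ₀ x, ⟨x, rfl⟩⟩) = φ₀ (ε x)
    rw [e2]
  have hrS : φ₀.range ≤ S := by
    rintro _ ⟨x, rfl⟩; exact hφ₀S x
  obtain ⟨χ, hχ, hχrel⟩ := hinv.2.2.1 φ₀.range hrS ψ₀ hψ₀ α hα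
  have hmemM : ∀ x : R, ((α ⟨φ₀ x, hφ₀S x⟩ : S) : Ω) ∈
      (φ₀.range.subgroupOf S).map (S.subtype.comp α.toMonoidHom) := fun x =>
    ⟨⟨φ₀ x, hφ₀S x⟩, Subgroup.mem_subgroupOf.2 ⟨x, rfl⟩, rfl⟩
  have hRM : R ≤ (φ₀.range.subgroupOf S).map (S.subtype.comp α.toMonoidHom) := by
    intro r hr
    have h1 := hmemM (γ⁻¹ ⟨r, hr⟩)
    rw [hrel', MulAut.apply_inv_self] at h1
    exact h1
  rw [mem_autGroup_iff E hRS]
  refine mem_of_eq E (restrict_mem E (χ := χ.comp (Subgroup.inclusion hRM)) hχ hRM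
    (fun x => rfl)) (fun x => ?_)
  obtain ⟨x', hx'⟩ : ∃ x' : R, x' = γ⁻¹ x := ⟨_, rfl⟩
  have hx : x = γ x' := by rw [hx', MulAut.apply_inv_self]
  have hψ₀S : ψ₀ ⟨φ₀ x', ⟨x', rfl⟩⟩ ∈ S := by rw [hψ₀val]; exact hφ₀S _
  have h2 : χ ⟨((α ⟨φ₀ x', hφ₀S x'⟩ : S) : Ω), hmemM x'⟩ =
      ((α ⟨ψ₀ ⟨φ₀ x', ⟨x', rfl⟩⟩, hψ₀S⟩ : S) : Ω) :=
    hχrel ⟨φ₀ x', ⟨x', rfl⟩⟩ hψ₀S (hmemM x')
  have e1 : (Subgroup.inclusion hRM x) = ⟨((α ⟨φ₀ x', hφ₀S x'⟩ : S) : Ω), hmemM x'⟩ := by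
    apply Subtype.ext
    show (x : Ω) = ((α ⟨φ₀ x', hφ₀S x'⟩ : S) : Ω)
    rw [hrel', hx]
  have e2 : (⟨ψ₀ ⟨φ₀ x', ⟨x', rfl⟩⟩, hψ₀S⟩ : S) = ⟨φ₀ (ε x'), hφ₀S _⟩ :=
    Subtype.ext (hψ₀val x')
  show (((γ * ε * γ⁻¹) x : R) : Ω) = χ (Subgroup.inclusion hRM x)
  rw [e1, h2, e2, hrel']
  subst hx'
  rfl

/-- A `p`-element of `K` lies in every subgroup `N` normalized by `K` that contains a Sylow
`p`-subgroup of `K`. -/
theorem mem_of_pPower_of_normal_sylow {A : Type*} [Group A] [Finite A] {p : ℕ} [Fact p.Prime]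
    {K H N : Subgroup A} (hsyl : ∃ R : Sylow p K, (R : Subgroup K) = H.subgroupOf K)
    (hHN : H ≤ N) (hnorm : ∀ γ ∈ K, ∀ ε ∈ N, γ * ε * γ⁻¹ ∈ N) {x : A} (hxK : x ∈ K)
    {k : ℕ} (hx : x ^ p ^ k = 1) : x ∈ N := by
  have hp : IsPGroup p (Subgroup.zpowers x) := isPGroup_zpowers hx
  have hle : Subgroup.zpowers x ≤ K := by
    rw [Subgroup.zpowers_le]; exact hxK
  obtain ⟨n, hn, hnH⟩ := exists_conj_le_of_sylowIn hsyl hp hle
  have h1 : n * x * n⁻¹ ∈ N := hHN (hnH ⟨x, Subgroup.mem_zpowers x, rfl⟩)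
  have h2 := hnorm n⁻¹ (K.inv_mem hn) _ h1
  have e : n⁻¹ * (n * x * n⁻¹) * n⁻¹⁻¹ = x := by group
  rw [e] at h2
  exact h2

/-- Elements of the subgroup generated by the `p`-elements of `N_Ω(R)` induce automorphisms of `R`
lying in `Aut_E(R)`, for `E` invariant in the saturated system `F` and `R` fully normalized. -/
theorem normalizerHom_mem_of_closure [Finite S] (p : ℕ) [Fact p.Prime] (hS : IsPGroup p S)
    (F E : FusionSystem S) (hF : F.IsSaturated p) (hinv : E.IsInvariantIn F) {R : Subgroup Ω}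
    (hRfn : F.IsFullyNormalized R)
    (hconj : ∀ n : Subgroup.normalizer (R : Set Ω), R.normalizerMonoidHom n ∈ F.autGroup R)
    {g : Ω} (hg : g ∈ Subgroup.closure
      {g : Ω | g ∈ Subgroup.normalizer (R : Set Ω) ∧ ∃ k : ℕ, orderOf g = p ^ k}) :
    ∃ hgR : g ∈ Subgroup.normalizer (R : Set Ω),
      R.normalizerMonoidHom ⟨g, hgR⟩ ∈ E.autGroup R := by
  have hRS : R ≤ S := hRfn.1
  have hRfin : Finite R := finite_of_le hRS
  have hfa : F.IsFullyAutomized p R := (sat_fullyNormalized p hS F hF hRfn).2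
  have hHN : autInducedBy S R ≤ E.autGroup R := autInducedBy_le_autGroup E hRS
  have hnorm : ∀ γ ∈ F.autGroup R, ∀ ε ∈ E.autGroup R, γ * ε * γ⁻¹ ∈ E.autGroup R :=
    fun γ hγ ε hε => conj_mem_autGroup_of_invariant F E hinv hRS hγ hε
  have hle : Subgroup.closure
      {g : Ω | g ∈ Subgroup.normalizer (R : Set Ω) ∧ ∃ k : ℕ, orderOf g = p ^ k} ≤
      ((E.autGroup R).comap R.normalizerMonoidHom).map
        (Subgroup.normalizer (R : Set Ω)).subtype := by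
    rw [Subgroup.closure_le]
    rintro x ⟨hxN, k, hk⟩
    refine ⟨⟨x, hxN⟩, ?_, rfl⟩
    show R.normalizerMonoidHom ⟨x, hxN⟩ ∈ E.autGroup R
    have e : (⟨x, hxN⟩ : Subgroup.normalizer (R : Set Ω)) ^ p ^ k = 1 := by
      apply Subtype.ext
      show x ^ p ^ k = 1
      rw [← hk]; exact pow_orderOf_eq_one x
    have e' : (R.normalizerMonoidHom ⟨x, hxN⟩) ^ p ^ k = 1 := by
      rw [← map_pow, e, map_one]
    exact mem_of_pPower_of_normal_sylow hfa.2 hHN hnorm (hconj _) e'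
  obtain ⟨n, hn, rfl⟩ := hle hg
  exact ⟨n.2, hn⟩

end General

/-- Simplicity criterion for the fusion system of a finite group. -/
theorem groupFusion_simple_of_generated {G : Type*} [Group G] [Finite G] (p : ℕ) [Fact p.Prime]
    (S : Sylow p G) (hS1 : (S : Subgroup G) ≠ ⊥)
    (ha : ∀ T : Subgroup G, (groupFusionSystem (S : Subgroup G)).StronglyClosed T →
      T = ⊥ ∨ T = (S : Subgroup G))
    (hb : autInducedBy ⊤ (S : Subgroup G) = ⨆ (R : Subgroup G)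
      (_ : (groupFusionSystem (S : Subgroup G)).IsFullyNormalized R ∧
        (groupFusionSystem (S : Subgroup G)).IsRadical p R ∧
        (groupFusionSystem (S : Subgroup G)).IsCentric R),
      autInducedBy (Subgroup.closure {g : G | g ∈ Subgroup.normalizer (R : Set G) ∧
        ∃ k : ℕ, orderOf g = p ^ k}) (S : Subgroup G)) :
    (groupFusionSystem (S : Subgroup G)).IsSimple p := by
  have hF : (groupFusionSystem (S : Subgroup G)).IsSaturated p := groupFusion_saturated p S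
  have hSp : IsPGroup p (S : Subgroup G) := S.isPGroup'
  refine ⟨hF, hS1, fun T E hE => ?_⟩
  have hinv : E.IsInvariantIn (groupFusionSystem (S : Subgroup G)) := hE.1.2.2
  have hEsat : E.IsSaturated p := hE.1.1
  rcases ha T hinv.2.1 with hT | hT
  · exact Or.inl hT
  · subst hT
    refine Or.inr ⟨rfl, hom_eq_of_autGroup_top_le _ E hinv ?_⟩
    rw [groupFusion_autGroup le_rfl, hb]
    refine iSup₂_le (fun R hR => ?_)
    intro α hα
    obtain ⟨g, hg, hgα⟩ := mem_autInducedBy_iff.1 hα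
    have hRS : R ≤ (S : Subgroup G) := hR.1.1
    have hconj : ∀ n : Subgroup.normalizer (R : Set G),
        R.normalizerMonoidHom n ∈ (groupFusionSystem (S : Subgroup G)).autGroup R := by
      intro n
      rw [groupFusion_autGroup hRS]
      exact mem_autInducedBy_iff.2 ⟨n, Subgroup.mem_top _, fun x => rfl⟩
    obtain ⟨hgR, hgE⟩ := normalizerHom_mem_of_closure p hSp _ E hF hinv hR.1 hconj hg
    have hres : (R.subtype.comp (R.normalizerMonoidHom ⟨g, hgR⟩).toMonoidHom) ∈ E.Hom R :=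
      (mem_autGroup_iff E hRS).1 hgE
    have hψ : (S : Subgroup G).subtype.comp α.toMonoidHom ∈
        (groupFusionSystem (S : Subgroup G)).Hom (S : Subgroup G) :=
      ⟨le_rfl, fun x => (α x).2, g, hgα⟩
    rw [mem_autGroup_iff E le_rfl]
    exact Helper27.mem_of_restrict_centric p hSp _ hF E hEsat hinv.1
      (Nat.card (S : Subgroup G)) R (S : Subgroup G) hRS hR.2.2 _ hψ (Nat.le_add_left _ _)
      (mem_of_eq E hres (fun x => hgα ⟨x, hRS x.2⟩))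

end Cfsg.Agent.Helper26
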