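import Cfsg.Agent.Helper26.TwSys
import Cfsg.Agent.Helper26.KNorm1
import Cfsg.Agent.Helper26.FusionNormal2

set_option autoImplicit false

namespace Cfsg.Agent.Helper26

open Cfsg Cfsg.FusionSystem

variable {Ω : Type*} [Group Ω] {S : Subgroup Ω}

/-- Automorphisms in `Aut_F(P)` whose restriction to `P ∩ T` lies in `Aut_E(P ∩ T)`. -/
def resAut (F : FusionSystem S) {T : Subgroup Ω} (E : FusionSystem T) (P : Subgroup Ω) :
    Subgroup (MulAut P) where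
  carrier := {c | c ∈ F.autGroup P ∧ ∃ κ ∈ E.autGroup (P ⊓ T), ∀ x : ↥(P ⊓ T),
    ((c (Subgroup.inclusion inf_le_left x) : P) : Ω) = ((κ x : ↥(P ⊓ T)) : Ω)}
  mul_mem' := by
    rintro a b ⟨ha, κa, hκa, hκa'⟩ ⟨hb, κb, hκb, hκb'⟩
    refine ⟨mul_mem ha hb, κa * κb, mul_mem hκa hκb, fun x => ?_⟩
    have h1 : b (Subgroup.inclusion inf_le_left x) =
        Subgroup.inclusion inf_le_left (κb x) := Subtype.ext (hκb' x)
    exact (congrArg (fun y => (((a y : P)) : Ω)) h1).trans (hκa' (κb x))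
  one_mem' := ⟨one_mem _, 1, one_mem _, fun x => rfl⟩
  inv_mem' := by
    rintro a ⟨ha, κa, hκa, hκa'⟩
    refine ⟨inv_mem ha, κa⁻¹, inv_mem hκa, fun x => ?_⟩
    have h1 := hκa' (κa⁻¹ x)
    have h2 : κa (κa⁻¹ x) = x := MulAut.apply_inv_self _ κa x
    rw [h2] at h1
    have h3 : a (Subgroup.inclusion inf_le_left (κa⁻¹ x)) =
        Subgroup.inclusion inf_le_left x := Subtype.ext h1
    have h4 : a⁻¹ (Subgroup.inclusion inf_le_left x) =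
        Subgroup.inclusion inf_le_left (κa⁻¹ x) := by
      rw [← h3]; exact MulAut.inv_apply_self _ a _
    exact congrArg Subtype.val h4

/-- The strong invariance condition. -/
def StrongInv (F : FusionSystem S) {T : Subgroup Ω} (E : FusionSystem T) : Prop :=
  ∀ (P Q : Subgroup Ω) (hPQ : P ≤ Q) (_ : Q ≤ T) (φ : P →* Ω) (_ : φ ∈ E.Hom P)
    (hφQ : ∀ x : P, φ x ∈ Q) (ψ : Q →* Ω) (_ : ψ ∈ F.Hom Q),
    ∃ χ ∈ E.Hom ((P.subgroupOf Q).map ψ),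
      ∀ (x : P) (hx : ψ (Subgroup.inclusion hPQ x) ∈ (P.subgroupOf Q).map ψ),
        χ ⟨ψ (Subgroup.inclusion hPQ x), hx⟩ = ψ ⟨φ x, hφQ x⟩

theorem strongInv_hC [Finite S] (p : ℕ) [Fact p.Prime] (hS : IsPGroup p S) (F : FusionSystem S)
    {T : Subgroup Ω} (E : FusionSystem T) (hT : F.StronglyClosed T) (hsi : StrongInv F E)
    (P : Subgroup Ω) (hPn : F.IsFullyNormalized P) (hTP : ¬ T ≤ P) :
    ∃ (C : Subgroup (MulAut P)) (g : Ω) (hgN : g ∈ Subgroup.normalizer (P : Set Ω)),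
      C ≤ F.autGroup P ∧ (∀ k ∈ F.autGroup P, ∀ c ∈ C, k * c * k⁻¹ ∈ C) ∧ g ∈ S ∧ g ∉ P ∧
      P.normalizerMonoidHom ⟨g, hgN⟩ ∈ C ∧
      ∀ c ∈ C, ∀ β ∈ F.autGroup T, TwIn E β β (P.subtype.comp c.toMonoidHom) := by
  have hPS : P ≤ S := hPn.1
  have hPfin : Finite P := finite_of_le hPS
  have hTS : T ≤ S := hT.1
  have hIP : P ⊓ T ≤ P := inf_le_left
  have hIT : P ⊓ T ≤ T := inf_le_right
  have hIfin : Finite ↥(P ⊓ T) := finite_of_le (hIP.trans hPS)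
  obtain ⟨g, hgT, hgN, hgP⟩ : ∃ g ∈ T, g ∈ Subgroup.normalizer (P : Set Ω) ∧ g ∉ P := by
    by_contra hcon
    apply hTP
    apply le_of_normalizer_le hS F hT hPS
    intro q hq hqN
    by_contra hqP
    exact hcon ⟨q, hq, hqN, hqP⟩
  refine ⟨resAut F E P, g, hgN, fun c hc => hc.1, ?_, hTS hgT, hgP, ?_, ?_⟩
  · rintro k hk c ⟨hc, κ, hκ, hκc⟩
    have hkF : P.subtype.comp k.toMonoidHom ∈ F.Hom P := (mem_autGroup_iff F hPS).1 hk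
    have himg : ((P ⊓ T).subgroupOf P).map (P.subtype.comp k.toMonoidHom) = P ⊓ T := by
      apply Subgroup.eq_of_le_of_card_ge
      · rintro _ ⟨x, hx, rfl⟩
        have hxI : (x : Ω) ∈ P ⊓ T := Subgroup.mem_subgroupOf.1 hx
        exact Subgroup.mem_inf.2 ⟨(k x).2,
          stronglyClosed_autGroup_maps F hT hPS hk x (Subgroup.mem_inf.1 hxI).2⟩
      · rw [card_map_subgroupOf hIP (F.injective_of_mem hkF)]
    obtain ⟨κk, hκk⟩ := exists_restrict_iso' _ (F.injective_of_mem hkF) hIP himg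
    have hκkF : (P ⊓ T).subtype.comp κk.toMonoidHom ∈ F.Hom (P ⊓ T) :=
      restrict_mem F hkF hIP hκk
    have hκE : (P ⊓ T).subtype.comp κ.toMonoidHom ∈ E.Hom (P ⊓ T) :=
      (mem_autGroup_iff E hIT).1 hκ
    obtain ⟨χ, hχ, hχe⟩ := hsi (P ⊓ T) (P ⊓ T) le_rfl hIT
      ((P ⊓ T).subtype.comp κ.toMonoidHom) hκE (fun x => (κ x).2)
      ((P ⊓ T).subtype.comp κk.toMonoidHom) hκkF
    have hle : P ⊓ T ≤
        ((P ⊓ T).subgroupOf (P ⊓ T)).map ((P ⊓ T).subtype.comp κk.toMonoidHom) := by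
      intro y hy
      refine ⟨κk⁻¹ ⟨y, hy⟩, Subgroup.mem_subgroupOf.2 (κk⁻¹ ⟨y, hy⟩).2, ?_⟩
      show ((κk (κk⁻¹ ⟨y, hy⟩) : ↥(P ⊓ T)) : Ω) = y
      rw [MulAut.apply_inv_self]
    have hκ'E : (P ⊓ T).subtype.comp (κk * κ * κk⁻¹).toMonoidHom ∈ E.Hom (P ⊓ T) := by
      refine restrict_mem E hχ hle (fun y => ?_)
      have hm : ((P ⊓ T).subtype.comp κk.toMonoidHom) (Subgroup.inclusion le_rfl (κk⁻¹ y)) ∈
          ((P ⊓ T).subgroupOf (P ⊓ T)).map ((P ⊓ T).subtype.comp κk.toMonoidHom) :=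
        ⟨_, Subgroup.mem_subgroupOf.2 (κk⁻¹ y).2, rfl⟩
      have h1 := hχe (κk⁻¹ y) hm
      have e : (⟨(y : Ω), hle y.2⟩ :
          ↥(((P ⊓ T).subgroupOf (P ⊓ T)).map ((P ⊓ T).subtype.comp κk.toMonoidHom))) =
          ⟨((P ⊓ T).subtype.comp κk.toMonoidHom) (Subgroup.inclusion le_rfl (κk⁻¹ y)), hm⟩ := by
        apply Subtype.ext
        show (y : Ω) = ((κk (κk⁻¹ y) : ↥(P ⊓ T)) : Ω)
        rw [MulAut.apply_inv_self]
      have h1' : χ ⟨(y : Ω), hle y.2⟩ = ((κk (κ (κk⁻¹ y)) : ↥(P ⊓ T)) : Ω) := by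
        rw [e]; exact h1
      exact h1'.symm
    refine ⟨Subgroup.mul_mem _ (Subgroup.mul_mem _ hk hc) (Subgroup.inv_mem _ hk),
      κk * κ * κk⁻¹, (mem_autGroup_iff E hIT).2 hκ'E, fun x => ?_⟩
    have hk1 : ∀ z : ↥(P ⊓ T), k (Subgroup.inclusion hIP z) = Subgroup.inclusion hIP (κk z) :=
      fun z => Subtype.ext (hκk z).symm
    have hc1 : ∀ z : ↥(P ⊓ T), c (Subgroup.inclusion hIP z) = Subgroup.inclusion hIP (κ z) :=
      fun z => Subtype.ext (hκc z)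
    have hk2 : ∀ z : ↥(P ⊓ T),
        k⁻¹ (Subgroup.inclusion hIP z) = Subgroup.inclusion hIP (κk⁻¹ z) := by
      intro z
      have e : Subgroup.inclusion hIP z = k (Subgroup.inclusion hIP (κk⁻¹ z)) := by
        rw [hk1 (κk⁻¹ z), MulAut.apply_inv_self]
      rw [e, MulAut.inv_apply_self]
    have h1 : k⁻¹ (Subgroup.inclusion hIP x) = Subgroup.inclusion hIP (κk⁻¹ x) := hk2 x
    have h2 : c (k⁻¹ (Subgroup.inclusion hIP x)) = Subgroup.inclusion hIP (κ (κk⁻¹ x)) := by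
      rw [h1]; exact hc1 _
    have h3 : k (c (k⁻¹ (Subgroup.inclusion hIP x))) =
        Subgroup.inclusion hIP (κk (κ (κk⁻¹ x))) := by
      rw [h2]; exact hk1 _
    exact congrArg (fun z : P => (z : Ω)) h3
  · have hgNI : g ∈ Subgroup.normalizer ((P ⊓ T : Subgroup Ω) : Set Ω) := by
      apply mem_normalizer_of_forall_conj_mem
      intro x hx
      obtain ⟨hxP, hxT⟩ := Subgroup.mem_inf.1 hx
      exact Subgroup.mem_inf.2 ⟨(Subgroup.mem_normalizer_iff.1 hgN x).1 hxP,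
        T.mul_mem (T.mul_mem hgT hxT) (T.inv_mem hgT)⟩
    refine ⟨autInducedBy_le_autGroup F hPS (mem_autInducedBy_iff.2 ⟨g, hTS hgT, fun x => rfl⟩),
      (P ⊓ T).normalizerMonoidHom ⟨g, hgNI⟩, ?_, fun x => rfl⟩
    rw [mem_autGroup_iff E hIT]
    exact mem_of_eq E (E.conj_mem hIT hgT) (fun x => rfl)
  · rintro c ⟨hc, κ, hκ, hκc⟩ β hβ
    have hκE : (P ⊓ T).subtype.comp κ.toMonoidHom ∈ E.Hom (P ⊓ T) :=
      (mem_autGroup_iff E hIT).1 hκ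
    have hβF : T.subtype.comp β.toMonoidHom ∈ F.Hom T := (mem_autGroup_iff F hTS).1 hβ
    obtain ⟨χ, hχ, hχe⟩ := hsi (P ⊓ T) T hIT le_rfl ((P ⊓ T).subtype.comp κ.toMonoidHom) hκE
      (fun x => hIT (κ x).2) (T.subtype.comp β.toMonoidHom) hβF
    refine ⟨χ, hχ, fun x hx hφ hm => ?_⟩
    have hxI : (x : Ω) ∈ P ⊓ T := Subgroup.mem_inf.2 ⟨x.2, hx⟩
    have h1 := hχe ⟨x, hxI⟩ hm
    have e : (⟨(P.subtype.comp c.toMonoidHom) x, hφ⟩ : T) =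
        ⟨((κ ⟨x, hxI⟩ : ↥(P ⊓ T)) : Ω), hIT (κ ⟨x, hxI⟩).2⟩ := Subtype.ext (hκc ⟨x, hxI⟩)
    rw [e]
    exact h1

theorem invariant_iff_strongInv [Finite S] (p : ℕ) [Fact p.Prime] (hS : IsPGroup p S)
    (F : FusionSystem S) (hF : F.IsSaturated p) {T : Subgroup Ω} (E : FusionSystem T)
    (hE : E.IsSubsystemOf F) (hT : F.StronglyClosed T) :
    E.IsInvariantIn F ↔ StrongInv F E := by
  constructor
  · rintro ⟨-, -, hA, hFr⟩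
    intro P Q hPQ hQT φ hφ hφQ ψ hψ
    obtain ⟨α, hα, ψ₀, hψ₀, hrel⟩ := hFr Q hQT ψ hψ
    have hψ₀T : ∀ y : Q, ψ₀ y ∈ T := (E.le_of_mem hψ₀).2
    have hrel' : ∀ y : Q, ψ y = ((α ⟨ψ₀ y, hψ₀T y⟩ : T) : Ω) := fun y => hrel y (hψ₀T y)
    obtain ⟨P₀, hP₀⟩ : ∃ P₀ : Subgroup Ω, P₀ = (P.subgroupOf Q).map ψ₀ := ⟨_, rfl⟩
    obtain ⟨e₀, he₀⟩ := exists_restrict_iso' ψ₀ (E.injective_of_mem hψ₀) hPQ hP₀.symm
    have he₀E : P₀.subtype.comp e₀.toMonoidHom ∈ E.Hom P := restrict_mem E hψ₀ hPQ he₀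
    have hsymm : P.subtype.comp e₀.symm.toMonoidHom ∈ E.Hom P₀ := iso_symm_mem E e₀ he₀E
    have hP₀T : P₀ ≤ T := iso_le_right E e₀ he₀E
    have hχa : φ.comp e₀.symm.toMonoidHom ∈ E.Hom P₀ :=
      comp_mem' E hsymm hφ (fun y => ⟨(e₀.symm y).2, rfl⟩)
    have hχaQ : ∀ y : P₀, (φ.comp e₀.symm.toMonoidHom) y ∈ Q := fun y => hφQ _
    obtain ⟨φ₁, hφ₁def⟩ : ∃ φ₁ : P₀ →* Ω,
        φ₁ = ψ₀.comp ((φ.comp e₀.symm.toMonoidHom).codRestrict Q hχaQ) := ⟨_, rfl⟩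
    have hφ₁ : φ₁ ∈ E.Hom P₀ := by
      rw [hφ₁def]; exact E.comp_mem hχa hψ₀ hχaQ
    have hφ₁T : ∀ y : P₀, φ₁ y ∈ T := (E.le_of_mem hφ₁).2
    have hφ₁val : ∀ x : P, φ₁ (e₀ x) = ψ₀ ⟨φ x, hφQ x⟩ := by
      intro x
      have hw : ((φ.comp e₀.symm.toMonoidHom).codRestrict Q hχaQ) (e₀ x) = ⟨φ x, hφQ x⟩ :=
        Subtype.ext (congrArg φ (e₀.symm_apply_apply x))
      rw [hφ₁def]
      exact congrArg ψ₀ hw
    obtain ⟨χ, hχ, hχe⟩ := hA P₀ hP₀T φ₁ hφ₁ α hα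
    have hkey : ∀ x : P, (⟨ψ₀ (Subgroup.inclusion hPQ x), hψ₀T _⟩ : T) =
        ⟨(e₀ x : Ω), hP₀T (e₀ x).2⟩ := fun x => Subtype.ext (he₀ x).symm
    have hψx : ∀ x : P, ψ (Subgroup.inclusion hPQ x) =
        ((α ⟨(e₀ x : Ω), hP₀T (e₀ x).2⟩ : T) : Ω) :=
      fun x => (hrel' _).trans (congrArg (fun t : T => ((α t : T) : Ω)) (hkey x))
    have hmem2 : ∀ x : P, ((α ⟨(e₀ x : Ω), hP₀T (e₀ x).2⟩ : T) : Ω) ∈
        (P₀.subgroupOf T).map (T.subtype.comp α.toMonoidHom) :=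
      fun x => ⟨⟨e₀ x, hP₀T (e₀ x).2⟩, Subgroup.mem_subgroupOf.2 (e₀ x).2, rfl⟩
    have hle : (P.subgroupOf Q).map ψ ≤ (P₀.subgroupOf T).map (T.subtype.comp α.toMonoidHom) := by
      rintro _ ⟨y, hy, rfl⟩
      have h1 := hmem2 ⟨y, Subgroup.mem_subgroupOf.1 hy⟩
      rw [← hψx] at h1
      exact h1
    refine ⟨χ.comp (Subgroup.inclusion hle), restrict_mem E hχ hle (fun _ => rfl),
      fun x hx => ?_⟩
    have h1 := hχe (e₀ x) (hφ₁T (e₀ x)) (hmem2 x)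
    have e1 : Subgroup.inclusion hle ⟨ψ (Subgroup.inclusion hPQ x), hx⟩ =
        ⟨((α ⟨(e₀ x : Ω), hP₀T (e₀ x).2⟩ : T) : Ω), hmem2 x⟩ := Subtype.ext (hψx x)
    have e2 : (⟨φ₁ (e₀ x), hφ₁T (e₀ x)⟩ : T) = ⟨ψ₀ ⟨φ x, hφQ x⟩, hψ₀T _⟩ :=
      Subtype.ext (hφ₁val x)
    show χ (Subgroup.inclusion hle ⟨ψ (Subgroup.inclusion hPQ x), hx⟩) = ψ ⟨φ x, hφQ x⟩
    rw [e1, h1, e2, hrel' ⟨φ x, hφQ x⟩]
  · intro hsi
    have hle : F ≤ twSys F E hT :=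
      le_twSys p hS F hF E hT (fun P hPn hTP => strongInv_hC p hS F E hT hsi P hPn hTP)
    refine ⟨hE, hT, fun P hPT φ hφ α hα => ?_,
      fun P hPT φ hφ => twSys_frattini F E hT hle hPT hφ⟩
    have hφT : ∀ x : P, φ x ∈ T := (E.le_of_mem hφ).2
    obtain ⟨χ, hχ, hχe⟩ := hsi P T hPT le_rfl φ hφ hφT (T.subtype.comp α.toMonoidHom)
      ((mem_autGroup_iff F hT.1).1 hα)
    exact ⟨χ, hχ, fun x hφx hαx => hχe x hαx⟩

end Cfsg.Agent.Helper26
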