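import Mathlib
import Cfsg.Prelude.Def_RootSubgroups

set_option autoImplicit false

namespace Cfsg.Agent.Helper26

open Pointwise

section UnipPair

variable {k : Type*} [Field k] {E : Type*} [Ring E] [Algebra k E]

/-- The augmentation subspace of a group of units: the span of the `h - 1`. -/
def augSub (k : Type*) [Field k] {E : Type*} [Ring E] [Algebra k E] (H : Subgroup Eˣ) :
    Submodule k E :=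
  Submodule.span k {x | ∃ h ∈ H, x = (h : E) - 1}

/-- The span of a group of units. -/
def spanSub (k : Type*) [Field k] {E : Type*} [Ring E] [Algebra k E] (K : Subgroup Eˣ) :
    Submodule k E :=
  Submodule.span k {x | ∃ g ∈ K, x = (g : E)}

theorem sub_one_mem_augSub {H : Subgroup Eˣ} {h : Eˣ} (hh : h ∈ H) :
    (h : E) - 1 ∈ augSub k H :=
  Submodule.subset_span ⟨h, hh, rfl⟩

theorem augSub_mono {H K : Subgroup Eˣ} (hHK : H ≤ K) : augSub k H ≤ augSub k K :=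
  Submodule.span_mono (by rintro x ⟨h, hh, rfl⟩; exact ⟨h, hHK hh, rfl⟩)

theorem augSub_mul_le (H : Subgroup Eˣ) : augSub k H * augSub k H ≤ augSub k H := by
  rw [augSub, Submodule.span_mul_span]
  refine Submodule.span_le.2 ?_
  rintro _ ⟨_, ⟨h, hh, rfl⟩, _, ⟨h', hh', rfl⟩, rfl⟩
  have e : ((h : E) - 1) * ((h' : E) - 1) =
      (((h * h' : Eˣ) : E) - 1) - ((h : E) - 1) - ((h' : E) - 1) := by
    rw [Units.val_mul]; noncomm_ring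
  show ((h : E) - 1) * ((h' : E) - 1) ∈ Submodule.span k {x | ∃ h ∈ H, x = (h : E) - 1}
  rw [e]
  exact Submodule.sub_mem _ (Submodule.sub_mem _
    (Submodule.subset_span ⟨h * h', mul_mem hh hh', rfl⟩)
    (Submodule.subset_span ⟨h, hh, rfl⟩)) (Submodule.subset_span ⟨h', hh', rfl⟩)

theorem spanSub_mul_le (K : Subgroup Eˣ) : spanSub k K * spanSub k K ≤ spanSub k K := by
  rw [spanSub, Submodule.span_mul_span]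
  refine Submodule.span_le.2 ?_
  rintro _ ⟨_, ⟨g, hg, rfl⟩, _, ⟨g', hg', rfl⟩, rfl⟩
  exact Submodule.subset_span ⟨g * g', mul_mem hg hg', (Units.val_mul g g').symm⟩

theorem one_le_spanSub (K : Subgroup Eˣ) : (1 : Submodule k E) ≤ spanSub k K :=
  Submodule.one_le.2 (Submodule.subset_span ⟨1, K.one_mem, Units.val_one.symm⟩)

theorem augSub_le_spanSub (K : Subgroup Eˣ) : augSub k K ≤ spanSub k K := by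
  refine Submodule.span_le.2 ?_
  rintro _ ⟨g, hg, rfl⟩
  exact Submodule.sub_mem _ (Submodule.subset_span ⟨g, hg, rfl⟩)
    (Submodule.one_le.1 (one_le_spanSub K))

theorem spanSub_mul_augSub_le {H K : Subgroup Eˣ} (hK : ∀ g ∈ K, ∀ h ∈ H, g * h * g⁻¹ ∈ H) :
    spanSub k K * augSub k H ≤ augSub k H * spanSub k K := by
  have hL : spanSub k K * augSub k H =
      Submodule.span k ({x | ∃ g ∈ K, x = (g : E)} * {x | ∃ h ∈ H, x = (h : E) - 1}) :=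
    Submodule.span_mul_span k _ _
  rw [hL]
  refine Submodule.span_le.2 ?_
  rintro _ ⟨_, ⟨g, hg, rfl⟩, _, ⟨h, hh, rfl⟩, rfl⟩
  have e0 : ((g * h * g⁻¹ : Eˣ) : E) * (g : E) = (g : E) * (h : E) := by
    rw [← Units.val_mul, ← Units.val_mul, inv_mul_cancel_right]
  have e : (g : E) * ((h : E) - 1) = (((g * h * g⁻¹ : Eˣ) : E) - 1) * (g : E) := by
    rw [sub_mul, e0, mul_sub, mul_one, one_mul]
  show (g : E) * ((h : E) - 1) ∈ augSub k H * spanSub k K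
  rw [e]
  exact Submodule.mul_mem_mul (sub_one_mem_augSub (hK g hg h hh))
    (Submodule.subset_span ⟨g, hg, rfl⟩)

theorem augSub_le_of_forall {𝔞 : Submodule k E} (h𝔞 : 𝔞 * 𝔞 ≤ 𝔞) {Δ : Set (Subgroup Eˣ)}
    (hΔ : ∀ A ∈ Δ, ∀ a ∈ A, ((a : Eˣ) : E) - 1 ∈ 𝔞) : augSub k (⨆ A ∈ Δ, A) ≤ 𝔞 := by
  let T : Subgroup Eˣ :=
    { carrier := {g | (g : E) - 1 ∈ 𝔞 ∧ ((g⁻¹ : Eˣ) : E) - 1 ∈ 𝔞}
      one_mem' := by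
        refine ⟨?_, ?_⟩
        · show ((1 : Eˣ) : E) - 1 ∈ 𝔞
          rw [Units.val_one, sub_self]; exact 𝔞.zero_mem
        · show (((1 : Eˣ)⁻¹ : Eˣ) : E) - 1 ∈ 𝔞
          rw [inv_one, Units.val_one, sub_self]; exact 𝔞.zero_mem
      mul_mem' := by
        rintro g h ⟨hg1, hg2⟩ ⟨hh1, hh2⟩
        refine ⟨?_, ?_⟩
        · have e : ((g * h : Eˣ) : E) - 1 =
              ((g : E) - 1) * ((h : E) - 1) + ((g : E) - 1) + ((h : E) - 1) := by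
            rw [Units.val_mul]; noncomm_ring
          show ((g * h : Eˣ) : E) - 1 ∈ 𝔞
          rw [e]
          exact 𝔞.add_mem (𝔞.add_mem (h𝔞 (Submodule.mul_mem_mul hg1 hh1)) hg1) hh1
        · have e : (((g * h)⁻¹ : Eˣ) : E) - 1 =
              (((h⁻¹ : Eˣ) : E) - 1) * (((g⁻¹ : Eˣ) : E) - 1) + (((h⁻¹ : Eˣ) : E) - 1) +
                (((g⁻¹ : Eˣ) : E) - 1) := by
            rw [mul_inv_rev, Units.val_mul]; noncomm_ring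
          show (((g * h)⁻¹ : Eˣ) : E) - 1 ∈ 𝔞
          rw [e]
          exact 𝔞.add_mem (𝔞.add_mem (h𝔞 (Submodule.mul_mem_mul hh2 hg2)) hh2) hg2
      inv_mem' := by
        rintro g ⟨hg1, hg2⟩
        refine ⟨hg2, ?_⟩
        show (((g⁻¹)⁻¹ : Eˣ) : E) - 1 ∈ 𝔞
        rw [inv_inv]; exact hg1 }
  have hle : (⨆ A ∈ Δ, A) ≤ T :=
    iSup₂_le fun A hA a ha => ⟨hΔ A hA a ha, hΔ A hA a⁻¹ (inv_mem ha)⟩
  refine Submodule.span_le.2 ?_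
  rintro _ ⟨h, hh, rfl⟩
  exact (hle hh).1

theorem list_prod_mem_pow (𝔞 : Submodule k E) :
    ∀ l : List E, (∀ x ∈ l, x ∈ 𝔞) → l.prod ∈ 𝔞 ^ l.length := by
  intro l
  induction l with
  | nil =>
    intro _
    rw [List.prod_nil, List.length_nil, pow_zero]
    exact Submodule.one_le.1 le_rfl
  | cons x l ih =>
    intro h
    rw [List.prod_cons, List.length_cons, pow_succ']
    exact Submodule.mul_mem_mul (h x (List.mem_cons.2 (Or.inl rfl)))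
      (ih fun y hy => h y (List.mem_cons.2 (Or.inr hy)))

theorem unip_iff (H : Subgroup Eˣ) :
    (∃ n : ℕ, ∀ l : List Eˣ, (∀ g ∈ l, g ∈ H) → l.length = n →
      (l.map fun g => ((g : Eˣ) : E) - 1).prod = 0) ↔ ∃ n : ℕ, augSub k H ^ n = ⊥ := by
  constructor
  · rintro ⟨n, hn⟩
    refine ⟨n, ?_⟩
    rw [augSub, Submodule.span_pow, Submodule.span_eq_bot]
    intro x hx
    obtain ⟨f, rfl⟩ := Set.mem_pow.1 hx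
    choose h hh he using fun i => (f i).2
    have h1 := hn (List.ofFn h) (fun g hg => by
      obtain ⟨i, rfl⟩ := List.mem_ofFn.1 hg
      exact hh i) List.length_ofFn
    rw [List.map_ofFn] at h1
    have h3 : (List.ofFn fun i => ((f i).1 : E)) =
        List.ofFn ((fun g : Eˣ => (g : E) - 1) ∘ h) :=
      congrArg List.ofFn (funext fun i => he i)
    exact (congrArg List.prod h3).trans h1
  · rintro ⟨n, hn⟩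
    refine ⟨n, fun l hl hlen => ?_⟩
    have h1 := list_prod_mem_pow (augSub k H) (l.map fun g => ((g : Eˣ) : E) - 1) (by
      intro x hx
      obtain ⟨g, hg, rfl⟩ := List.mem_map.1 hx
      exact sub_one_mem_augSub (hl g hg))
    rw [List.length_map, hlen, hn] at h1
    exact (Submodule.mem_bot k).1 h1

/-- Members of `W` whose augmentation lies in `𝔞`. -/
def augFam (W : Set (Subgroup Eˣ)) (𝔞 : Submodule k E) : Set (Subgroup Eˣ) :=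
  {A | A ∈ W ∧ ∀ a ∈ A, ((a : Eˣ) : E) - 1 ∈ 𝔞}

/-- The `W`-generated part of `𝔞`. -/
def augGen (W : Set (Subgroup Eˣ)) (𝔞 : Submodule k E) : Submodule k E :=
  augSub k (⨆ A ∈ augFam W 𝔞, A)

theorem augFam_mono (W : Set (Subgroup Eˣ)) {𝔞 𝔟 : Submodule k E} (h : 𝔞 ≤ 𝔟) :
    augFam W 𝔞 ⊆ augFam W 𝔟 := fun _ hA => ⟨hA.1, fun a ha => h (hA.2 a ha)⟩

theorem mem_augFam_inf {W : Set (Subgroup Eˣ)} {𝔞 𝔟 : Submodule k E} {A : Subgroup Eˣ}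
    (h1 : A ∈ augFam W 𝔞) (h2 : A ∈ augFam W 𝔟) : A ∈ augFam W (𝔞 ⊓ 𝔟) :=
  ⟨h1.1, fun a ha => Submodule.mem_inf.2 ⟨h1.2 a ha, h2.2 a ha⟩⟩

theorem augGen_le (W : Set (Subgroup Eˣ)) {𝔞 : Submodule k E} (h𝔞 : 𝔞 * 𝔞 ≤ 𝔞) :
    augGen W 𝔞 ≤ 𝔞 :=
  augSub_le_of_forall h𝔞 (fun _ hA => hA.2)

theorem mem_augFam_augGen {W : Set (Subgroup Eˣ)} {𝔞 : Submodule k E} {A : Subgroup Eˣ}
    (hA : A ∈ augFam W 𝔞) : A ∈ augFam W (augGen W 𝔞) :=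
  ⟨hA.1, fun _ ha => sub_one_mem_augSub
    (Subgroup.mem_iSup_of_mem A (Subgroup.mem_iSup_of_mem hA ha))⟩

theorem augGen_mono {W : Set (Subgroup Eˣ)} {𝔞 𝔟 : Submodule k E}
    (h : augFam W 𝔞 ⊆ augFam W 𝔟) : augGen W 𝔞 ≤ augGen W 𝔟 :=
  augSub_mono (biSup_mono fun _ hA => h hA)

theorem augGen_mul_le (W : Set (Subgroup Eˣ)) (𝔞 : Submodule k E) :
    augGen W 𝔞 * augGen W 𝔞 ≤ augGen W 𝔞 := augSub_mul_le _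

theorem augFam_augGen (W : Set (Subgroup Eˣ)) {𝔞 : Submodule k E} (h𝔞 : 𝔞 * 𝔞 ≤ 𝔞) :
    augFam W (augGen W 𝔞) = augFam W 𝔞 :=
  Set.Subset.antisymm (augFam_mono W (augGen_le W h𝔞)) (fun _ hA => mem_augFam_augGen hA)

theorem augGen_augGen (W : Set (Subgroup Eˣ)) {𝔞 : Submodule k E} (h𝔞 : 𝔞 * 𝔞 ≤ 𝔞) :
    augGen W (augGen W 𝔞) = augGen W 𝔞 := by
  show augSub k (⨆ A ∈ augFam W (augGen W 𝔞), A) = augSub k (⨆ A ∈ augFam W 𝔞, A)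
  rw [augFam_augGen W h𝔞]

theorem nilp_of_le {𝔞 𝔟 : Submodule k E} (h : 𝔞 ≤ 𝔟) (hn : ∃ n : ℕ, 𝔟 ^ n = ⊥) :
    ∃ n : ℕ, 𝔞 ^ n = ⊥ := by
  obtain ⟨n, hn⟩ := hn
  exact ⟨n, le_bot_iff.1 ((pow_le_pow_left' h n).trans hn.le)⟩

theorem sub_pow_succ_le {𝔭 : Submodule k E} (h : 𝔭 * 𝔭 ≤ 𝔭) (j : ℕ) :
    𝔭 ^ (j + 1 + 1) ≤ 𝔭 ^ (j + 1) := by
  calc 𝔭 ^ (j + 1 + 1) = 𝔭 ^ j * (𝔭 * 𝔭) := by rw [pow_succ, pow_succ, mul_assoc]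
    _ ≤ 𝔭 ^ j * 𝔭 := mul_le_mul' le_rfl h
    _ = 𝔭 ^ (j + 1) := (pow_succ _ _).symm

theorem sub_pow_anti {𝔭 : Submodule k E} (h : 𝔭 * 𝔭 ≤ 𝔭) {i j : ℕ} (hi : 1 ≤ i) (hij : i ≤ j) :
    𝔭 ^ j ≤ 𝔭 ^ i := by
  induction j, hij using Nat.le_induction with
  | base => exact le_rfl
  | succ m hm ih =>
    obtain ⟨m', rfl⟩ : ∃ m', m = m' + 1 := ⟨m - 1, by omega⟩
    exact (sub_pow_succ_le h m').trans ih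

theorem sup_pow_mul_le {𝔭 𝔡 : Submodule k E} (h𝔡 : 𝔡 * 𝔡 ≤ 𝔡) (h𝔡𝔭 : 𝔡 ≤ 𝔭) (m : ℕ) :
    (𝔡 ⊔ 𝔭 ^ m) * 𝔡 ≤ 𝔡 ⊔ 𝔭 ^ (m + 1) := by
  rw [Submodule.sup_mul]
  refine sup_le (h𝔡.trans le_sup_left) (le_sup_of_le_right ?_)
  calc 𝔭 ^ m * 𝔡 ≤ 𝔭 ^ m * 𝔭 := mul_le_mul' le_rfl h𝔡𝔭
    _ = 𝔭 ^ (m + 1) := (pow_succ _ _).symm

theorem mul_sup_pow_le {𝔭 𝔡 : Submodule k E} (h𝔡 : 𝔡 * 𝔡 ≤ 𝔡) (h𝔡𝔭 : 𝔡 ≤ 𝔭) (m : ℕ) :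
    𝔡 * (𝔡 ⊔ 𝔭 ^ m) ≤ 𝔡 ⊔ 𝔭 ^ (m + 1) := by
  rw [Submodule.mul_sup]
  refine sup_le (h𝔡.trans le_sup_left) (le_sup_of_le_right ?_)
  calc 𝔡 * 𝔭 ^ m ≤ 𝔭 * 𝔭 ^ m := mul_le_mul' h𝔡𝔭 le_rfl
    _ = 𝔭 ^ (m + 1) := (pow_succ' _ _).symm

theorem sup_pow_mul_sup_le {𝔭 𝔡 : Submodule k E} (h𝔭 : 𝔭 * 𝔭 ≤ 𝔭) (h𝔡 : 𝔡 * 𝔡 ≤ 𝔡)
    (h𝔡𝔭 : 𝔡 ≤ 𝔭) (m : ℕ) :
    (𝔡 ⊔ 𝔭 ^ (m + 1 + 1)) * (𝔡 ⊔ 𝔭 ^ (m + 1)) ≤ 𝔡 ⊔ 𝔭 ^ (m + 1 + 1) := by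
  have hA : 𝔡 * 𝔡 ≤ 𝔡 ⊔ 𝔭 ^ (m + 1 + 1) := h𝔡.trans le_sup_left
  have hB : 𝔡 * 𝔭 ^ (m + 1) ≤ 𝔡 ⊔ 𝔭 ^ (m + 1 + 1) := by
    refine le_sup_of_le_right ?_
    calc 𝔡 * 𝔭 ^ (m + 1) ≤ 𝔭 * 𝔭 ^ (m + 1) := mul_le_mul' h𝔡𝔭 le_rfl
      _ = 𝔭 ^ (m + 1 + 1) := (pow_succ' _ _).symm
  have hC : 𝔭 ^ (m + 1 + 1) * 𝔡 ≤ 𝔡 ⊔ 𝔭 ^ (m + 1 + 1) := by
    refine le_sup_of_le_right ?_
    calc 𝔭 ^ (m + 1 + 1) * 𝔡 ≤ 𝔭 ^ (m + 1 + 1) * 𝔭 := mul_le_mul' le_rfl h𝔡𝔭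
      _ = 𝔭 ^ (m + 1 + 1 + 1) := (pow_succ _ _).symm
      _ ≤ 𝔭 ^ (m + 1 + 1) := sub_pow_succ_le h𝔭 (m + 1)
  have hD : 𝔭 ^ (m + 1 + 1) * 𝔭 ^ (m + 1) ≤ 𝔡 ⊔ 𝔭 ^ (m + 1 + 1) := by
    refine le_sup_of_le_right ?_
    calc 𝔭 ^ (m + 1 + 1) * 𝔭 ^ (m + 1) ≤ 𝔭 ^ (m + 1 + 1) * 𝔭 :=
          mul_le_mul' le_rfl
            ((sub_pow_anti h𝔭 le_rfl (by omega : 1 ≤ m + 1)).trans (pow_one 𝔭).le)
      _ = 𝔭 ^ (m + 1 + 1 + 1) := (pow_succ _ _).symm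
      _ ≤ 𝔭 ^ (m + 1 + 1) := sub_pow_succ_le h𝔭 (m + 1)
  simp only [Submodule.sup_mul, Submodule.mul_sup]
  refine sup_le (sup_le ?_ ?_) (sup_le ?_ ?_)
  all_goals first
    | exact hA
    | exact hB
    | exact hC
    | exact hD

theorem exists_normalizing_member {W : Set (Subgroup Eˣ)}
    (hconj : ∀ A ∈ W, ∀ B ∈ W, ∀ g ∈ B, A.map (MulAut.conj g).toMonoidHom ∈ W)
    {𝔭 𝔡 : Submodule k E} (h𝔭 : 𝔭 * 𝔭 ≤ 𝔭) (hnil : ∃ n : ℕ, 𝔭 ^ n = ⊥) (h𝔡 : 𝔡 * 𝔡 ≤ 𝔡)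
    (h𝔡𝔭 : 𝔡 ≤ 𝔭) (hne : ¬ (augFam W 𝔭 ⊆ augFam W 𝔡)) :
    ∃ X ∈ augFam W 𝔭, X ∉ augFam W 𝔡 ∧
      ∀ x ∈ X, ∀ A ∈ augFam W 𝔡, A.map (MulAut.conj x).toMonoidHom ∈ augFam W 𝔡 := by
  classical
  obtain ⟨n, hn⟩ := hnil
  have hP : ∃ j : ℕ, augFam W (𝔡 ⊔ 𝔭 ^ (j + 1)) ⊆ augFam W 𝔡 := by
    refine ⟨n, ?_⟩
    have e : 𝔡 ⊔ 𝔭 ^ (n + 1) = 𝔡 := by rw [pow_succ, hn, Submodule.bot_mul, sup_bot_eq]
    exact (congrArg (augFam W) e).subset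
  have hj := Nat.find_spec hP
  rcases Nat.eq_zero_or_pos (Nat.find hP) with h0 | hpos
  · exfalso
    rw [h0] at hj
    apply hne
    have e : 𝔡 ⊔ 𝔭 ^ (0 + 1) = 𝔭 := by rw [zero_add, pow_one]; exact sup_eq_right.2 h𝔡𝔭
    rw [e] at hj
    exact hj
  · obtain ⟨i, hi⟩ : ∃ i, Nat.find hP = i + 1 := ⟨Nat.find hP - 1, by omega⟩
    rw [hi] at hj
    have hni : ¬ (augFam W (𝔡 ⊔ 𝔭 ^ (i + 1)) ⊆ augFam W 𝔡) :=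
      Nat.find_min hP (by omega : i < Nat.find hP)
    obtain ⟨X, hX, hXD⟩ := Set.not_subset.1 hni
    have hle : 𝔡 ⊔ 𝔭 ^ (i + 1) ≤ 𝔭 :=
      sup_le h𝔡𝔭 ((sub_pow_anti h𝔭 le_rfl (by omega : 1 ≤ i + 1)).trans (pow_one 𝔭).le)
    refine ⟨X, augFam_mono W hle hX, hXD, ?_⟩
    intro x hx A hA
    apply hj
    refine ⟨hconj A hA.1 X hX.1 x hx, ?_⟩
    rintro _ ⟨a, ha, rfl⟩
    have hy : ((a : Eˣ) : E) - 1 ∈ 𝔡 := hA.2 a ha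
    have hξ : ((x : Eˣ) : E) - 1 ∈ 𝔡 ⊔ 𝔭 ^ (i + 1) := hX.2 x hx
    have hξ' : ((x⁻¹ : Eˣ) : E) - 1 ∈ 𝔡 ⊔ 𝔭 ^ (i + 1) := hX.2 x⁻¹ (inv_mem hx)
    have hxx : ((x : Eˣ) : E) * ((x⁻¹ : Eˣ) : E) = 1 := Units.mul_inv x
    have e : (((MulAut.conj x).toMonoidHom a : Eˣ) : E) - 1 =
        ((a : E) - 1) + ((((x : E) - 1) * ((a : E) - 1) - ((a : E) - 1) * ((x : E) - 1)) +
          (((x : E) - 1) * ((a : E) - 1) - ((a : E) - 1) * ((x : E) - 1)) *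
            (((x⁻¹ : Eˣ) : E) - 1)) := by
      have e1 : (((MulAut.conj x).toMonoidHom a : Eˣ) : E) =
          (x : E) * (a : E) * ((x⁻¹ : Eˣ) : E) := by
        show ((x * a * x⁻¹ : Eˣ) : E) = _
        rw [Units.val_mul, Units.val_mul]
      have e2 : ((a : E) - 1) + ((((x : E) - 1) * ((a : E) - 1) - ((a : E) - 1) * ((x : E) - 1)) +
          (((x : E) - 1) * ((a : E) - 1) - ((a : E) - 1) * ((x : E) - 1)) *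
            (((x⁻¹ : Eˣ) : E) - 1)) =
          (x : E) * (a : E) * ((x⁻¹ : Eˣ) : E) - (x : E) * ((x⁻¹ : Eˣ) : E)
            - ((a : E) - 1) * ((x : E) * ((x⁻¹ : Eˣ) : E)) + ((a : E) - 1) := by
        noncomm_ring
      rw [e1, e2, hxx]
      noncomm_ring
    rw [e]
    have hc : ((x : E) - 1) * ((a : E) - 1) - ((a : E) - 1) * ((x : E) - 1) ∈
        𝔡 ⊔ 𝔭 ^ (i + 1 + 1) :=
      Submodule.sub_mem _ (sup_pow_mul_le h𝔡 h𝔡𝔭 (i + 1) (Submodule.mul_mem_mul hξ hy))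
        (mul_sup_pow_le h𝔡 h𝔡𝔭 (i + 1) (Submodule.mul_mem_mul hy hξ))
    exact Submodule.add_mem _ ((show 𝔡 ≤ 𝔡 ⊔ 𝔭 ^ (i + 1 + 1) from le_sup_left) hy)
      (Submodule.add_mem _ hc
        (sup_pow_mul_sup_le h𝔭 h𝔡 h𝔡𝔭 i (Submodule.mul_mem_mul hc hξ')))

theorem exists_nilp_of_normalizing {H K : Subgroup Eˣ}
    (hK : ∀ g ∈ K, ∀ h ∈ H, g * h * g⁻¹ ∈ H)
    (hH : ∃ n : ℕ, augSub k H ^ n = ⊥) (hKn : ∃ n : ℕ, augSub k K ^ n = ⊥) :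
    ∃ 𝔱 : Submodule k E, 𝔱 * 𝔱 ≤ 𝔱 ∧ (∃ n : ℕ, 𝔱 ^ n = ⊥) ∧ augSub k H ≤ 𝔱 ∧
      augSub k K ≤ 𝔱 := by
  obtain ⟨nH, hnH⟩ := hH
  obtain ⟨nK, hnK⟩ := hKn
  obtain ⟨𝔡, h𝔡def⟩ : ∃ 𝔡, 𝔡 = augSub k H := ⟨_, rfl⟩
  obtain ⟨𝔨, h𝔨def⟩ : ∃ 𝔨, 𝔨 = augSub k K := ⟨_, rfl⟩
  obtain ⟨B, hBdef⟩ : ∃ B, B = spanSub k K := ⟨_, rfl⟩
  rw [← h𝔡def] at hnH
  rw [← h𝔨def] at hnK
  rw [← h𝔡def, ← h𝔨def]
  have h𝔡 : 𝔡 * 𝔡 ≤ 𝔡 := by rw [h𝔡def]; exact augSub_mul_le H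
  have h𝔨 : 𝔨 * 𝔨 ≤ 𝔨 := by rw [h𝔨def]; exact augSub_mul_le K
  have h1B : (1 : Submodule k E) ≤ B := by rw [hBdef]; exact one_le_spanSub K
  have h𝔨B : 𝔨 ≤ B := by rw [hBdef, h𝔨def]; exact augSub_le_spanSub K
  have hBB : B * B ≤ B := by rw [hBdef]; exact spanSub_mul_le K
  have hB𝔡 : B * 𝔡 ≤ 𝔡 * B := by rw [hBdef, h𝔡def]; exact spanSub_mul_augSub_le hK
  obtain ⟨J, hJdef⟩ : ∃ J, J = 𝔡 * B := ⟨_, rfl⟩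
  have hJB : J * B ≤ J := by
    calc J * B = 𝔡 * (B * B) := by rw [hJdef, mul_assoc]
      _ ≤ 𝔡 * B := mul_le_mul' le_rfl hBB
      _ = J := hJdef.symm
  have hBJ : B * J ≤ J := by
    calc B * J = B * 𝔡 * B := by rw [hJdef, mul_assoc]
      _ ≤ 𝔡 * B * B := mul_le_mul' hB𝔡 le_rfl
      _ = 𝔡 * (B * B) := mul_assoc _ _ _
      _ ≤ 𝔡 * B := mul_le_mul' le_rfl hBB
      _ = J := hJdef.symm
  have h𝔡J : 𝔡 ≤ J := by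
    calc 𝔡 = 𝔡 * 1 := (mul_one _).symm
      _ ≤ 𝔡 * B := mul_le_mul' le_rfl h1B
      _ = J := hJdef.symm
  have hJJ : J * J ≤ J := by
    calc J * J = 𝔡 * (B * J) := by rw [hJdef, mul_assoc]
      _ ≤ 𝔡 * J := mul_le_mul' le_rfl hBJ
      _ = 𝔡 * 𝔡 * B := by rw [hJdef, mul_assoc]
      _ ≤ 𝔡 * B := mul_le_mul' h𝔡 le_rfl
      _ = J := hJdef.symm
  have hJpow : ∀ m : ℕ, J ^ (m + 1) ≤ 𝔡 ^ (m + 1) * B := by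
    intro m
    induction m with
    | zero =>
      simp only [zero_add, pow_one]
      exact hJdef.le
    | succ m ih =>
      calc J ^ (m + 1 + 1) = J ^ (m + 1) * J := pow_succ _ _
        _ ≤ 𝔡 ^ (m + 1) * B * (𝔡 * B) := mul_le_mul' ih hJdef.le
        _ = 𝔡 ^ (m + 1) * (B * 𝔡) * B := by simp only [mul_assoc]
        _ ≤ 𝔡 ^ (m + 1) * (𝔡 * B) * B := mul_le_mul' (mul_le_mul' le_rfl hB𝔡) le_rfl
        _ = 𝔡 ^ (m + 1 + 1) * (B * B) := by rw [pow_succ 𝔡 (m + 1)]; simp only [mul_assoc]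
        _ ≤ 𝔡 ^ (m + 1 + 1) * B := mul_le_mul' le_rfl hBB
  have hJnil : J ^ (nH + 1) = ⊥ := by
    refine le_bot_iff.1 ((hJpow nH).trans ?_)
    have e : 𝔡 ^ (nH + 1) * B = ⊥ := by
      rw [pow_succ, hnH, Submodule.bot_mul, Submodule.bot_mul]
    exact e.le
  have h𝔨pow : ∀ m : ℕ, 𝔨 ^ (m + 1) ≤ B := fun m =>
    ((sub_pow_anti h𝔨 le_rfl (by omega : 1 ≤ m + 1)).trans (pow_one 𝔨).le).trans h𝔨B
  have hJ𝔨 : J * 𝔨 ≤ J := (mul_le_mul' le_rfl h𝔨B).trans hJB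
  have h𝔱m : (J ⊔ 𝔨) * (J ⊔ 𝔨) ≤ J ⊔ 𝔨 := by
    have hA : J * J ≤ J ⊔ 𝔨 := hJJ.trans le_sup_left
    have hB' : J * 𝔨 ≤ J ⊔ 𝔨 := hJ𝔨.trans le_sup_left
    have hC : 𝔨 * J ≤ J ⊔ 𝔨 := ((mul_le_mul' h𝔨B le_rfl).trans hBJ).trans le_sup_left
    have hD : 𝔨 * 𝔨 ≤ J ⊔ 𝔨 := h𝔨.trans le_sup_right
    simp only [Submodule.sup_mul, Submodule.mul_sup]
    refine sup_le (sup_le ?_ ?_) (sup_le ?_ ?_)
    all_goals first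
      | exact hA
      | exact hB'
      | exact hC
      | exact hD
  have h𝔱pow : ∀ m : ℕ, (J ⊔ 𝔨) ^ (m + 1) ≤ J ⊔ 𝔨 ^ (m + 1) := by
    intro m
    induction m with
    | zero => simp only [zero_add, pow_one, le_refl]
    | succ m ih =>
      have hA : J * J ≤ J ⊔ 𝔨 ^ (m + 1 + 1) := hJJ.trans le_sup_left
      have hB' : J * 𝔨 ≤ J ⊔ 𝔨 ^ (m + 1 + 1) := hJ𝔨.trans le_sup_left
      have hC : 𝔨 ^ (m + 1) * J ≤ J ⊔ 𝔨 ^ (m + 1 + 1) :=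
        ((mul_le_mul' (h𝔨pow m) le_rfl).trans hBJ).trans le_sup_left
      have hD : 𝔨 ^ (m + 1) * 𝔨 ≤ J ⊔ 𝔨 ^ (m + 1 + 1) :=
        (pow_succ 𝔨 (m + 1)).symm.le.trans le_sup_right
      calc (J ⊔ 𝔨) ^ (m + 1 + 1) = (J ⊔ 𝔨) ^ (m + 1) * (J ⊔ 𝔨) := pow_succ _ _
        _ ≤ (J ⊔ 𝔨 ^ (m + 1)) * (J ⊔ 𝔨) := mul_le_mul' ih le_rfl
        _ ≤ J ⊔ 𝔨 ^ (m + 1 + 1) := by
          simp only [Submodule.sup_mul, Submodule.mul_sup]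
          refine sup_le (sup_le ?_ ?_) (sup_le ?_ ?_)
          all_goals first
            | exact hA
            | exact hB'
            | exact hC
            | exact hD
  have h𝔨nil' : 𝔨 ^ (nK + 1) = ⊥ := by rw [pow_succ, hnK, Submodule.bot_mul]
  have h𝔱J : (J ⊔ 𝔨) ^ (nK + 1) ≤ J := by
    have h := h𝔱pow nK
    rw [h𝔨nil', sup_bot_eq] at h
    exact h
  have h𝔱nil : (J ⊔ 𝔨) ^ ((nK + 1) * (nH + 1)) = ⊥ := by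
    rw [pow_mul]
    exact le_bot_iff.1 ((pow_le_pow_left' h𝔱J (nH + 1)).trans hJnil.le)
  exact ⟨J ⊔ 𝔨, h𝔱m, ⟨_, h𝔱nil⟩, h𝔡J.trans le_sup_left, le_sup_right⟩

/-- conjugation by `x` preserves the join of a family stable under it -/
theorem conj_mem_biSup {G : Type*} [Group G] {D : Set (Subgroup G)} {x : G}
    (hx : ∀ A ∈ D, A.map (MulAut.conj x).toMonoidHom ∈ D) {h : G} (hh : h ∈ ⨆ A ∈ D, A) :
    x * h * x⁻¹ ∈ ⨆ A ∈ D, A := by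
  have hle : (⨆ A ∈ D, A) ≤ (⨆ A ∈ D, A).comap (MulAut.conj x).toMonoidHom :=
    iSup₂_le fun A hA a ha => Subgroup.mem_comap.2
      (Subgroup.mem_iSup_of_mem (A.map (MulAut.conj x).toMonoidHom)
        (Subgroup.mem_iSup_of_mem (hx A hA) (Subgroup.mem_map_of_mem _ ha)))
  exact hle hh

/-- the two-sided normalizer as a subgroup -/
def unipNormz {G : Type*} [Group G] (H : Subgroup G) : Subgroup G where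
  carrier := {g | (∀ h ∈ H, g * h * g⁻¹ ∈ H) ∧ ∀ h ∈ H, g⁻¹ * h * g ∈ H}
  one_mem' := ⟨fun h hh => by simpa using hh, fun h hh => by simpa using hh⟩
  mul_mem' := by
    rintro a b ⟨ha1, ha2⟩ ⟨hb1, hb2⟩
    refine ⟨fun h hh => ?_, fun h hh => ?_⟩
    · have e : a * b * h * (a * b)⁻¹ = a * (b * h * b⁻¹) * a⁻¹ := by group
      rw [e]; exact ha1 _ (hb1 h hh)
    · have e : (a * b)⁻¹ * h * (a * b) = b⁻¹ * (a⁻¹ * h * a) * b := by group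
      rw [e]; exact hb2 _ (ha2 h hh)
  inv_mem' := by
    rintro a ⟨ha1, ha2⟩
    refine ⟨fun h hh => ?_, fun h hh => ?_⟩
    · have e : a⁻¹ * h * a⁻¹⁻¹ = a⁻¹ * h * a := by rw [inv_inv]
      rw [e]; exact ha2 h hh
    · have e : a⁻¹⁻¹ * h * a⁻¹ = a * h * a⁻¹ := by rw [inv_inv]
      rw [e]; exact ha1 h hh

theorem mem_unipNormz {G : Type*} [Group G] {H : Subgroup G} {g : G} :
    g ∈ unipNormz H ↔ (∀ h ∈ H, g * h * g⁻¹ ∈ H) ∧ ∀ h ∈ H, g⁻¹ * h * g ∈ H := Iff.rfl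

/-- `𝔞` is `W`-generated and nilpotent. -/
def IsAugClosed (W : Set (Subgroup Eˣ)) (𝔞 : Submodule k E) : Prop :=
  augGen W 𝔞 = 𝔞 ∧ ∃ n : ℕ, 𝔞 ^ n = ⊥

/-- maximal among the `W`-generated nilpotent subspaces -/
def IsAugMax (W : Set (Subgroup Eˣ)) (𝔭 : Submodule k E) : Prop :=
  IsAugClosed W 𝔭 ∧ ∀ 𝔟 : Submodule k E, IsAugClosed W 𝔟 → 𝔭 ≤ 𝔟 → 𝔟 = 𝔭

theorem augClosed_mul_le {W : Set (Subgroup Eˣ)} {𝔞 : Submodule k E} (h : IsAugClosed W 𝔞) :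
    𝔞 * 𝔞 ≤ 𝔞 := by
  have h1 := augGen_mul_le W 𝔞
  rw [h.1] at h1
  exact h1

theorem augClosed_augGen (W : Set (Subgroup Eˣ)) {𝔱 : Submodule k E} (h1 : 𝔱 * 𝔱 ≤ 𝔱)
    (h2 : ∃ n : ℕ, 𝔱 ^ n = ⊥) : IsAugClosed W (augGen W 𝔱) :=
  ⟨augGen_augGen W h1, nilp_of_le (augGen_le W h1) h2⟩

theorem exists_augMax_ge [IsNoetherian k E] {W : Set (Subgroup Eˣ)} {𝔞 : Submodule k E}
    (h𝔞 : IsAugClosed W 𝔞) : ∃ 𝔭, IsAugMax W 𝔭 ∧ 𝔞 ≤ 𝔭 := by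
  have hwf : WellFounded (fun a b : Submodule k E => a > b) := wellFounded_gt
  obtain ⟨𝔭, ⟨h𝔭S, h𝔞𝔭⟩, hmin⟩ :=
    hwf.has_min {𝔟 | IsAugClosed W 𝔟 ∧ 𝔞 ≤ 𝔟} ⟨𝔞, h𝔞, le_rfl⟩
  refine ⟨𝔭, ⟨h𝔭S, fun 𝔟 h𝔟 hle => ?_⟩, h𝔞𝔭⟩
  by_contra hne
  exact hmin 𝔟 ⟨h𝔟, h𝔞𝔭.trans hle⟩ (lt_of_le_of_ne hle (Ne.symm hne))

theorem augMax_unique [IsNoetherian k E] {W : Set (Subgroup Eˣ)}
    (hconj : ∀ A ∈ W, ∀ B ∈ W, ∀ g ∈ B, A.map (MulAut.conj g).toMonoidHom ∈ W)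
    (hpair : ∀ A ∈ W, ∀ B ∈ W, ∃ n : ℕ, augSub k (A ⊔ B) ^ n = ⊥)
    {𝔭₀ 𝔮₀ : Submodule k E} (h𝔭₀ : IsAugMax W 𝔭₀) (h𝔮₀ : IsAugMax W 𝔮₀) : 𝔭₀ = 𝔮₀ := by
  by_contra hne₀
  have hwf : WellFounded (fun a b : Submodule k E => a > b) := wellFounded_gt
  obtain ⟨_, ⟨𝔭, 𝔮, h𝔭, h𝔮, hne, rfl⟩, hmax⟩ := hwf.has_min
    {𝔡 | ∃ 𝔭 𝔮 : Submodule k E, IsAugMax W 𝔭 ∧ IsAugMax W 𝔮 ∧ 𝔭 ≠ 𝔮 ∧ 𝔡 = augGen W (𝔭 ⊓ 𝔮)}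
    ⟨_, 𝔭₀, 𝔮₀, h𝔭₀, h𝔮₀, hne₀, rfl⟩
  have h𝔭m : 𝔭 * 𝔭 ≤ 𝔭 := augClosed_mul_le h𝔭.1
  have h𝔮m : 𝔮 * 𝔮 ≤ 𝔮 := augClosed_mul_le h𝔮.1
  have him : (𝔭 ⊓ 𝔮) * (𝔭 ⊓ 𝔮) ≤ 𝔭 ⊓ 𝔮 :=
    le_inf ((mul_le_mul' inf_le_left inf_le_left).trans h𝔭m)
      ((mul_le_mul' inf_le_right inf_le_right).trans h𝔮m)
  obtain ⟨𝔡, h𝔡def⟩ : ∃ 𝔡, 𝔡 = augGen W (𝔭 ⊓ 𝔮) := ⟨_, rfl⟩
  have h𝔡le : 𝔡 ≤ 𝔭 ⊓ 𝔮 := by rw [h𝔡def]; exact augGen_le W him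
  have h𝔡m : 𝔡 * 𝔡 ≤ 𝔡 := by rw [h𝔡def]; exact augGen_mul_le W (𝔭 ⊓ 𝔮)
  have hHaug : augGen W 𝔡 = 𝔡 := by rw [h𝔡def]; exact augGen_augGen W him
  have hfam𝔭 : augFam W 𝔡 ⊆ augFam W 𝔭 := augFam_mono W (h𝔡le.trans inf_le_left)
  have hfam𝔮 : augFam W 𝔡 ⊆ augFam W 𝔮 := augFam_mono W (h𝔡le.trans inf_le_right)
  have hne𝔭 : ¬ (augFam W 𝔭 ⊆ augFam W 𝔡) := by
    intro hsub
    have h1 : augGen W 𝔭 ≤ augGen W 𝔮 := augGen_mono (fun A hA => hfam𝔮 (hsub hA))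
    rw [h𝔭.1.1, h𝔮.1.1] at h1
    exact hne (h𝔭.2 𝔮 h𝔮.1 h1).symm
  have hne𝔮 : ¬ (augFam W 𝔮 ⊆ augFam W 𝔡) := by
    intro hsub
    have h1 : augGen W 𝔮 ≤ augGen W 𝔭 := augGen_mono (fun A hA => hfam𝔭 (hsub hA))
    rw [h𝔭.1.1, h𝔮.1.1] at h1
    exact hne (h𝔮.2 𝔭 h𝔭.1 h1)
  have h𝔡nil : ∃ n : ℕ, 𝔡 ^ n = ⊥ := nilp_of_le (h𝔡le.trans inf_le_left) h𝔭.1.2
  obtain ⟨X, hX𝔭, hXD, hXn⟩ :=
    exists_normalizing_member hconj h𝔭m h𝔭.1.2 h𝔡m (h𝔡le.trans inf_le_left) hne𝔭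
  obtain ⟨Y, hY𝔮, hYD, hYn⟩ :=
    exists_normalizing_member hconj h𝔮m h𝔮.1.2 h𝔡m (h𝔡le.trans inf_le_right) hne𝔮
  have hXnorm : X ≤ unipNormz (⨆ A ∈ augFam W 𝔡, A) := fun x hx =>
    mem_unipNormz.2 ⟨fun h hh => conj_mem_biSup (hXn x hx) hh, fun h hh => by
      have h3 := conj_mem_biSup (hXn x⁻¹ (inv_mem hx)) hh
      rwa [inv_inv] at h3⟩
  have hYnorm : Y ≤ unipNormz (⨆ A ∈ augFam W 𝔡, A) := fun x hx =>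
    mem_unipNormz.2 ⟨fun h hh => conj_mem_biSup (hYn x hx) hh, fun h hh => by
      have h3 := conj_mem_biSup (hYn x⁻¹ (inv_mem hx)) hh
      rwa [inv_inv] at h3⟩
  have hKnorm : ∀ g ∈ X ⊔ Y, ∀ h ∈ (⨆ A ∈ augFam W 𝔡, A),
      g * h * g⁻¹ ∈ (⨆ A ∈ augFam W 𝔡, A) :=
    fun g hg => (mem_unipNormz.1 (sup_le hXnorm hYnorm hg)).1
  have hHnil : ∃ n : ℕ, augSub k (⨆ A ∈ augFam W 𝔡, A) ^ n = ⊥ := by
    have h4 : augSub k (⨆ A ∈ augFam W 𝔡, A) = 𝔡 := hHaug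
    rw [h4]; exact h𝔡nil
  obtain ⟨𝔱, h𝔱m, h𝔱nil, hH𝔱, hK𝔱⟩ :=
    exists_nilp_of_normalizing hKnorm hHnil (hpair X hX𝔭.1 Y hY𝔮.1)
  have h𝔡𝔱 : 𝔡 ≤ 𝔱 := by
    have h4 : augSub k (⨆ A ∈ augFam W 𝔡, A) = 𝔡 := hHaug
    rw [h4] at hH𝔱; exact hH𝔱
  obtain ⟨𝔯, h𝔯, h𝔯le⟩ := exists_augMax_ge (augClosed_augGen W h𝔱m h𝔱nil)
  have hfam𝔱𝔯 : augFam W 𝔱 ⊆ augFam W 𝔯 :=
    fun A hA => augFam_mono W h𝔯le (mem_augFam_augGen hA)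
  have hD𝔯 : augFam W 𝔡 ⊆ augFam W 𝔯 := fun A hA => hfam𝔱𝔯 (augFam_mono W h𝔡𝔱 hA)
  have hX𝔯 : X ∈ augFam W 𝔯 :=
    hfam𝔱𝔯 ⟨hX𝔭.1, fun x hx => hK𝔱 (sub_one_mem_augSub (Subgroup.mem_sup_left hx))⟩
  have hY𝔯 : Y ∈ augFam W 𝔯 :=
    hfam𝔱𝔯 ⟨hY𝔮.1, fun y hy => hK𝔱 (sub_one_mem_augSub (Subgroup.mem_sup_right hy))⟩
  have key : ∀ 𝔭' : Submodule k E, IsAugMax W 𝔭' → augFam W 𝔡 ⊆ augFam W 𝔭' →
      ∀ Z, Z ∈ augFam W 𝔭' → Z ∈ augFam W 𝔯 → Z ∉ augFam W 𝔡 →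
      (𝔡 < augGen W (𝔭' ⊓ 𝔯) → False) → 𝔭' = 𝔯 := by
    intro 𝔭' h𝔭' hD' Z hZ𝔭' hZ𝔯 hZD hcontra
    by_contra hne'
    have hle : 𝔡 ≤ augGen W (𝔭' ⊓ 𝔯) := by
      have hsub : augFam W 𝔡 ⊆ augFam W (𝔭' ⊓ 𝔯) :=
        fun A hA => mem_augFam_inf (hD' hA) (hD𝔯 hA)
      have h := augGen_mono hsub
      rw [hHaug] at h
      exact h
    have hneq : 𝔡 ≠ augGen W (𝔭' ⊓ 𝔯) := by
      intro heq
      apply hZD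
      rw [heq]
      exact mem_augFam_augGen (mem_augFam_inf hZ𝔭' hZ𝔯)
    exact hcontra (lt_of_le_of_ne hle hneq)
  have h1 : 𝔭 = 𝔯 := by
    by_contra hne'
    refine hne' (key 𝔭 h𝔭 hfam𝔭 X hX𝔭 hX𝔯 hXD fun hlt => ?_)
    rw [h𝔡def] at hlt
    exact hmax _ ⟨𝔭, 𝔯, h𝔭, h𝔯, hne', rfl⟩ hlt
  have h2 : 𝔮 = 𝔯 := by
    by_contra hne'
    refine hne' (key 𝔮 h𝔮 hfam𝔮 Y hY𝔮 hY𝔯 hYD fun hlt => ?_)
    rw [h𝔡def] at hlt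
    exact hmax _ ⟨𝔮, 𝔯, h𝔮, h𝔯, hne', rfl⟩ hlt
  exact hne (h1.trans h2.symm)

theorem augSub_iSup_nilpotent [IsNoetherian k E] (W : Set (Subgroup Eˣ))
    (hconj : ∀ A ∈ W, ∀ B ∈ W, ∀ g ∈ B, A.map (MulAut.conj g).toMonoidHom ∈ W)
    (hpair : ∀ A ∈ W, ∀ B ∈ W, ∃ n : ℕ, augSub k (A ⊔ B) ^ n = ⊥) :
    ∃ n : ℕ, augSub k (⨆ A ∈ W, A) ^ n = ⊥ := by
  have hbot : IsAugClosed W (augGen W (⊥ : Submodule k E)) :=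
    augClosed_augGen W (Submodule.bot_mul ⊥).le ⟨1, pow_one _⟩
  obtain ⟨𝔭, h𝔭, -⟩ := exists_augMax_ge hbot
  have hall : ∀ A ∈ W, A ∈ augFam W 𝔭 := by
    intro A hA
    have hnil : ∃ n : ℕ, augSub k A ^ n = ⊥ := by
      have h := hpair A hA A hA
      rw [sup_idem] at h
      exact h
    have hcl := augClosed_augGen W (augSub_mul_le A) hnil
    obtain ⟨𝔭', h𝔭', hle⟩ := exists_augMax_ge hcl
    have heq : 𝔭' = 𝔭 := augMax_unique hconj hpair h𝔭' h𝔭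
    rw [← heq]
    exact augFam_mono W hle (mem_augFam_augGen ⟨hA, fun a ha => sub_one_mem_augSub ha⟩)
  exact nilp_of_le (augSub_le_of_forall (augClosed_mul_le h𝔭.1) (fun A hA => (hall A hA).2))
    h𝔭.1.2

end UnipPair

theorem list_bind_pure_eq_map.{u} {α β : Type u} (f : α → β) (l : List α) :
    (do let a ← l; pure (f a) : List β) = l.map f := by
  induction l with
  | nil => rfl
  | cons x l ih => exact congrArg (List.cons (f x)) ih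

theorem isUnipotentOn_iff_list {k : Type*} [Field k] {M : Type*} [AddCommGroup M] [Module k M]
    (H : Subgroup (LinearMap.GeneralLinearGroup k M)) :
    Cfsg.IsUnipotentOn H ↔ ∃ n : ℕ, ∀ l : List (M →ₗ[k] M)ˣ, (∀ g ∈ l, g ∈ H) → l.length = n →
      (l.map fun g => ((g : (M →ₗ[k] M)ˣ) : M →ₗ[k] M) - 1).prod = 0 := by
  unfold Cfsg.IsUnipotentOn
  constructor
  · rintro ⟨n, hn⟩
    refine ⟨n, fun l hl hlen => ?_⟩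
    have h := hn l hl hlen
    rw [list_bind_pure_eq_map, List.map_map] at h
    exact h
  · rintro ⟨n, hn⟩
    refine ⟨n, fun l hl hlen => ?_⟩
    rw [list_bind_pure_eq_map, List.map_map]
    exact hn l hl hlen

theorem unipotent_sup_of_pairwise {k : Type*} [Field k] {M : Type*} [AddCommGroup M] [Module k M]
    [FiniteDimensional k M]
    {G : Subgroup (LinearMap.GeneralLinearGroup k M)}
    {W : Set (Subgroup (LinearMap.GeneralLinearGroup k M))}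
    (hWG : ∀ A ∈ W, A ≤ G)
    (hWW : ∀ A ∈ W, ∀ B ∈ W, Cfsg.IsUnipotentOn (A ⊔ B))
    (hWconj : ∀ A ∈ W, ∀ g ∈ G, Cfsg.conjBy A g ∈ W) :
    Cfsg.IsUnipotentOn (⨆ A ∈ W, A) ∧
      ∀ g ∈ G, Cfsg.conjBy (⨆ A ∈ W, A) g = ⨆ A ∈ W, A := by
  have hnoeth : IsNoetherian k (M →ₗ[k] M) := inferInstance
  constructor
  · have h := augSub_iSup_nilpotent (k := k) (E := M →ₗ[k] M) W
      (fun A hA B hB g hg => hWconj A hA g (hWG B hB hg))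
      (fun A hA B hB => (unip_iff (k := k) (A ⊔ B)).1
        ((isUnipotentOn_iff_list (A ⊔ B)).1 (hWW A hA B hB)))
    exact (isUnipotentOn_iff_list _).2 ((unip_iff (k := k) _).2 h)
  · intro g hg
    apply le_antisymm
    · rintro _ ⟨h, hh, rfl⟩
      exact conj_mem_biSup (fun A hA => hWconj A hA g hg) hh
    · intro h hh
      refine ⟨g⁻¹ * h * g, ?_, ?_⟩
      · have h3 := conj_mem_biSup (x := g⁻¹) (fun A hA => hWconj A hA g⁻¹ (inv_mem hg)) hh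
        rwa [inv_inv] at h3
      · show g * (g⁻¹ * h * g) * g⁻¹ = h
        group

end Cfsg.Agent.Helper26
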